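import Cfsg.Agent.Lib.Golay.Odd
import Cfsg.Agent.Lib.Golay.L23.Main
import Cfsg.Agent.Lib.Golay.P9.Main

/-! Subgroups of `M24` containing elements of order 11 or 23. -/

set_option autoImplicit false
set_option maxRecDepth 100000
set_option exponentiation.threshold 100000

namespace Cfsg.Agent.Golay

open Cfsg Cfsg.Agent.PG Equiv MulAction
open scoped Pointwise symmDiff

theorem mem_normalizer_zpowers {G : Type*} [Group G] [Finite G] {g a : G}
    (h : g * a * g⁻¹ ∈ Subgroup.zpowers a) :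
    g ∈ Subgroup.normalizer (Subgroup.zpowers a : Set G) := by
  apply Subgroup.mem_normalizer_fintype
  rintro _ ⟨n, rfl⟩
  show g * a ^ n * g⁻¹ ∈ Subgroup.zpowers a
  rw [← conj_zpow]
  exact Subgroup.zpow_mem _ h n

theorem orbF_subset_fixF {v g : M24} (h : g ∈ Subgroup.centralizer {v}) {p : GolayPt}
    (hp : g ∈ stabilizer M24 p) : orbF (Subgroup.zpowers v) p ⊆ fixF g := by
  apply orbF_subset _ (mem_fixF.2 hp)
  rw [Subgroup.zpowers_le, mem_stab_M24]
  apply smul_eq_of_mem_iff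
  intro q
  have e : ∀ q, (g : Perm GolayPt) ((v : Perm GolayPt) q) = (v : Perm GolayPt) ((g : Perm GolayPt) q) :=
    fun q => congrArg (fun x : M24 => (x : Perm GolayPt) q) (Subgroup.mem_centralizer_singleton_iff.1 h)
  rw [mem_fixF, mem_fixF, e, EmbeddingLike.apply_eq_iff_eq]

theorem orbF_cj {k : M24} {H : Subgroup M24} {s : Finset GolayPt} (hk : k ∈ stabilizer M24 s)
    {p q : GolayPt} (hq : q ∈ s) (h : orbF (cj k H) p = s) : orbF H q = s := by
  have h1 : ∀ z, z ∈ orbF H ((k : Perm GolayPt) p) ↔ z ∈ s := by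
    intro z
    obtain ⟨z, rfl⟩ := (k : Perm GolayPt).surjective z
    rw [mem_iff_of_smul_eq (mem_stab_M24.1 hk), ← h, mem_orbF, mem_orbF]
    constructor
    · rintro ⟨g, hg, e⟩
      refine ⟨_, mem_cj' hg, ?_⟩
      show (k : Perm GolayPt)⁻¹ ((g : Perm GolayPt) ((k : Perm GolayPt) p)) = z
      rw [e]; simp
    · rintro ⟨g, hg, e⟩
      exact ⟨_, mem_cj.1 hg, conj_apply e⟩
  have h2 : orbF H ((k : Perm GolayPt) p) = s := Finset.ext h1
  refine Finset.Subset.antisymm (h2 ▸ orbF_trans (h2 ▸ hq)) ?_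
  obtain ⟨g, hg, e⟩ := mem_orbF.1 ((h1 q).2 hq)
  exact h2 ▸ orbF_trans (mem_orbF.2 ⟨g⁻¹, H.inv_mem hg, by rw [← e]; simp⟩)

namespace Elv

theorem mL : m24OK L23.A = true := by decide +kernel
theorem m9 : m24OK P9.A = true := by decide +kernel

/-- `t ↦ t + 1` -/
noncomputable def ua : M24 := el L23.hA mL [0x208060a04]
/-- `t ↦ 2 t` -/
noncomputable def ub : M24 := el L23.hA mL [0x208080808]
/-- `t ↦ -1/t` -/
noncomputable def uc : M24 := el L23.hA mL [0x200]

theorem ua_pow : ua ^ 23 = 1 := el_pow _ _ (by decide +kernel)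
theorem ub_pow : ub ^ 11 = 1 := el_pow _ _ (by decide +kernel)
theorem ua_ne : ua ≠ 1 := fun h => absurd ((toG_pp_apply L23.hA mL (l := [0x208060a04]) (a := 0) (b := 1)
  (by omega) (by decide +kernel)).symm.trans
    (congrArg (fun x : M24 => (x : Perm GolayPt) (pt 0)) h)) (by decide)
theorem ub_ne : ub ≠ 1 := fun h => absurd ((toG_pp_apply L23.hA mL (l := [0x208080808]) (a := 1) (b := 2)
  (by omega) (by decide +kernel)).symm.trans
    (congrArg (fun x : M24 => (x : Perm GolayPt) (pt 1)) h)) (by decide)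
theorem ua_23 : ua ∈ stP 23 := el_fix_pt _ _ (by omega) (by decide +kernel)
theorem ub_0 : ub ∈ stP 0 := el_fix_pt _ _ (by omega) (by decide +kernel)
theorem ub_23 : ub ∈ stP 23 := el_fix_pt _ _ (by omega) (by decide +kernel)

theorem gens_a {H : Subgroup M24} (h : ua ∈ H) : ∀ w ∈ [[0x208060a04]], el L23.hA mL w ∈ H :=
  fun _ hw => List.mem_singleton.1 hw ▸ h
theorem gens_b {H : Subgroup M24} (h : ub ∈ H) : ∀ w ∈ [[0x208080808]], el L23.hA mL w ∈ H :=
  fun _ hw => List.mem_singleton.1 hw ▸ h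

theorem orbs_b : orbsB L23.A [[0x208080808]] 11 [(0, 0x1), (1, 0x5335e), (5, 0x7acca0), (23, 0x800000)] = true := by decide +kernel

theorem dod0 : ofMask 0x5335f ∈ dodecads :=
  ⟨cw_of_isCw (by decide +kernel), by rw [card_ofMask]; decide +kernel⟩

theorem eleven_cases {H : Subgroup M24} (hu : ub ∈ H) : H ≤ stS 0x5335f ∨
    orbF H (pt 1) = ofMask 0x7ffffe ∨ 23 ∣ Nat.card H ∨ orbF H (pt 1) = Finset.univ := by
  have hd := card_orbF_dvd H (pt 1)
  have hs := le_stab_orbF H (pt 1)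
  obtain ⟨m, hm, e⟩ := inv_mem L23.hA mL (gens_b hu) orbs_b hs (P := fun m => m.testBit 1 = true)
    (fun m hm => bit_of_mem (by omega) hm (self_mem_orbF _ _))
    (l := [0x5335e, 0x85335e, 0x7ffffe, 0xfffffe, 0x5335f, 0x85335f, 0x7fffff, 0xffffff]) (by decide +kernel)
  rw [e] at hs hd
  rw [card_ofMask] at hd
  simp only [List.mem_cons, List.not_mem_nil, or_false] at hm
  rcases hm with rfl | rfl | rfl | rfl | rfl | rfl | rfl | rfl
  · exact Or.inl (le_stab_cw' hs (by decide +kernel))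
  · exact Or.inl (le_stab_cw' hs (by decide +kernel))
  · exact Or.inr (Or.inl e)
  · exact Or.inr (Or.inr (Or.inl ((show 23 ∣ pc _ by decide +kernel).trans hd)))
  · exact Or.inl (le_stab_cw' hs (by decide +kernel))
  · exact Or.inl (le_stab_cw' hs (by decide +kernel))
  · exact Or.inr (Or.inr (Or.inl ((show 23 ∣ pc _ by decide +kernel).trans hd)))
  · exact Or.inr (Or.inr (Or.inr (e.trans ofMask_full)))

theorem card22 : Nat.card ↥(stP 0 ⊓ stP 23) = 443520 := card_stab_pt2 (by decide)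

theorem le_D12 : stP 0 ⊓ stP 23 ≤ stS 0x7ffffe :=
  le_stab_xor (le_stab_xor (le_stab_full _) (sp_le_ss (by omega) inf_le_left) rfl)
    (sp_le_ss (by omega) inf_le_right) (by decide)

theorem trans22 {H : Subgroup M24} (hH : H ≤ stP 0 ⊓ stP 23) (h11 : 11 ∣ Nat.card H)
    (hc : 660 < Nat.card H) : orbF H (pt 1) = ofMask 0x7ffffe := by
  obtain ⟨k, hk, h⟩ := exists_conj_into (p := 11) (a := 1) (by norm_num) hH
    (Subgroup.zpowers_le.2 ⟨ub_0, ub_23⟩) h11 (by rw [card22]; decide) (isPGroup_zpowers ub_pow)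
  have h1 := cj_le hk hH
  refine orbF_cj (le_D12 hk) (p := pt 1) (by decide) ?_
  rcases eleven_cases (h (Subgroup.mem_zpowers _)) with h2 | h2 | h2 | h2
  · have := Subgroup.card_le_of_le (le_inf (le_inf h2 (h1.trans inf_le_left)) (h1.trans inf_le_right))
    rw [card_stab_dod_in_out dod0 (by decide) (by decide), card_cj] at this
    omega
  · exact h2
  · have := h2.trans (Subgroup.card_dvd_of_le h1)
    rw [card22] at this
    exact absurd this (by decide)
  · exact absurd (h2 ▸ Finset.mem_univ _) (notMem_orbF (h1.trans inf_le_left) (by decide))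

theorem card_norm11 :
    Nat.card ↥(stP 0 ⊓ stP 23 ⊓ Subgroup.normalizer (Subgroup.zpowers ub : Set M24)) = 55 := by
  have h1 := card_normalizer_dvd (p := 11) (by norm_num) (stP 0 ⊓ stP 23) ub_ne ub_pow
  have h2 := card_orbF (stP 0 ⊓ stP 23 ⊓ Subgroup.centralizer {ub}) (pt 1)
  have h3 : stP 0 ⊓ stP 23 ⊓ Subgroup.centralizer {ub} ⊓ stP 1 = ⊥ := by
    rw [eq_bot_iff]
    intro g hg
    have h4 := (cover_orbF L23.hA mL (gens_b (Subgroup.mem_zpowers ub)) (a := 1) (r := 11)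
      (m := 0x5335e) (by omega) (by decide +kernel)).trans (orbF_subset_fixF hg.1.2 hg.2)
    refine Subtype.ext (rigid g.2 (rigid_step g.2 (F := 0x85335f) (Os := [0x149f, 0x293e, 0x9959, 0x401ed])
      (by decide +kernel) fun p hp => ?_))
    have h5 : ∀ p ∈ ofMask 0x85335f, p = pt 0 ∨ p = pt 23 ∨ p ∈ ofMask 0x5335e := by decide
    rcases h5 p hp with rfl | rfl | h6
    · exact hg.1.1.1
    · exact hg.1.1.2
    · exact mem_fixF.1 (h4 h6)
  rw [h3, Subgroup.card_bot, mul_one] at h2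
  obtain ⟨m, hm, e⟩ := inv_mem L23.hA mL (H := stP 0 ⊓ stP 23 ⊓ Subgroup.centralizer {ub})
    (gens_b ⟨⟨ub_0, ub_23⟩, Subgroup.mem_centralizer_singleton_iff.2 rfl⟩) orbs_b
    (le_stab_orbF _ (pt 1))
    (P := fun m => m.testBit 1 = true ∧ m.testBit 0 = false ∧ m.testBit 23 = false)
    (fun m hm => ⟨bit_of_mem (by omega) hm (self_mem_orbF _ _),
      bit_of_notMem (by omega) hm (notMem_orbF (inf_le_left.trans inf_le_left) (by decide)),
      bit_of_notMem (by omega) hm (notMem_orbF (inf_le_left.trans inf_le_right) (by decide))⟩)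
    (l := [0x5335e, 0x7ffffe]) (by decide +kernel)
  have h4 : ∀ m ∈ [0x5335e, 0x7ffffe], pc m * (11 - 1) ∣ 220 := by decide +kernel
  rw [← h2, e, card_ofMask] at h1
  have h5 := h1.trans (h4 m hm)
  obtain ⟨n, h6, h7⟩ := sylow_count (p := 11) (by norm_num) (H := stP 0 ⊓ stP 23)
    (Subgroup.zpowers_le.2 ⟨ub_0, ub_23⟩) (card_zpowers_prime (by norm_num) ub_ne ub_pow)
    (by rw [card22]; decide)
  rw [card22] at h6
  have h8 : ∀ c ≤ 220, c ∣ 220 → 443520 / c % 11 = 1 → c = 55 := by decide +kernel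
  refine h8 _ (Nat.le_of_dvd (by omega) h5) h5 ?_
  rw [← h6, Nat.mul_div_cancel _ Nat.card_pos, h7]

theorem sylow11 {H : Subgroup M24} (hH : H ≤ stP 0 ⊓ stP 23) (hu : ub ∈ H) :
    Nat.card H % 121 = 11 ∨ Nat.card H % 605 = 55 := by
  obtain ⟨n, h6, h7⟩ := sylow_count (p := 11) (by norm_num) (H := H)
    (Subgroup.zpowers_le.2 hu) (card_zpowers_prime (by norm_num) ub_ne ub_pow)
    (fun h => absurd (card22 ▸ h.trans (Subgroup.card_dvd_of_le hH)) (by decide))
  have h1 := Subgroup.card_dvd_of_le (inf_le_inf_right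
    (Subgroup.normalizer (Subgroup.zpowers ub : Set M24)) hH)
  rw [card_norm11] at h1
  have h2 := dvd_card_of_mem (p := 11) (by norm_num)
    (H := H ⊓ Subgroup.normalizer (Subgroup.zpowers ub : Set M24))
    ⟨hu, Subgroup.le_normalizer (Subgroup.mem_zpowers _)⟩ ub_ne ub_pow
  have h8 : ∀ c ≤ 55, c ∣ 55 → 11 ∣ c → c = 11 ∨ c = 55 := by decide +kernel
  rcases h8 _ (Nat.le_of_dvd (by omega) h1) h1 h2 with h | h <;> rw [h] at h6 <;> omega

theorem index210 {H : Subgroup M24} (hH : H ≤ stP 0 ⊓ stP 23) (hc : Nat.card H = 2112) : False := by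
  obtain ⟨k, hk, h⟩ := exists_conj_into (p := 11) (a := 1) (by norm_num) hH
    (Subgroup.zpowers_le.2 ⟨ub_0, ub_23⟩) (by rw [hc]; decide) (by rw [card22]; decide)
    (isPGroup_zpowers ub_pow)
  have := sylow11 (cj_le hk hH) (h (Subgroup.mem_zpowers _))
  rw [card_cj, hc] at this
  omega

noncomputable def Bn0 : Net :=
 (.cons 16 0x5160
 (.cons 8 0x50018
 (.cons 4 0x1010805
 (.cons 2 0x1300010
 (.cons 1 0x11014
 (.cons 4 0x90001
 (.cons 8 0x44003c
 (.cons 16 0x5127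
 .nil))))))))

noncomputable def Bn1 : Net :=
 (.cons 16 0x5900
 (.cons 8 0x90032
 (.cons 4 0x10200
 (.cons 2 0x10230001
 (.cons 1 0x401041
 (.cons 4 0x4000c
 (.cons 8 0x180094
 (.cons 16 0x59b4
 .nil))))))))

noncomputable def Bn2 : Net :=
 (.cons 16 0x65c4
 (.cons 8 0x400a4
 (.cons 4 0x40a0201
 (.cons 2 0x21102012
 (.cons 1 0x40140401
 (.cons 2 0x20000202
 (.cons 4 0x80200
 (.cons 8 0x1003c
 (.cons 16 0x65a8
 .nil)))))))))

noncomputable def Bn3 : Net :=
 (.cons 16 0x4f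
 (.cons 8 0x37
 (.cons 4 0xc0003
 (.cons 2 0x100221
 (.cons 1 0x140401
 (.cons 2 0x200000
 (.cons 4 0x4060a
 (.cons 8 0x80
 (.cons 16 0xef
 .nil)))))))))

noncomputable def Bn4 : Net :=
 (.cons 16 0x3726
 (.cons 8 0x170068
 (.cons 4 0x10a0008
 (.cons 2 0x1012000
 (.cons 1 0x10404044
 (.cons 2 0x200002
 (.cons 4 0x1000800
 (.cons 8 0x20028
 (.cons 16 0x3746
 .nil)))))))))

noncomputable def Bn5 : Net :=
 (.cons 16 0x6b
 (.cons 8 0x8e
 (.cons 4 0x60b
 (.cons 2 0x22
 (.cons 1 0x404104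
 (.cons 2 0x200202
 (.cons 4 0x8
 (.cons 8 0xb4
 (.cons 16 0x63
 .nil)))))))))

noncomputable def Bn6 : Net :=
 (.cons 16 0xd84
 (.cons 8 0x580078
 (.cons 4 0x4080400
 (.cons 2 0x11222220
 (.cons 1 0x10440
 (.cons 2 0x20220
 (.cons 4 0xc04
 (.cons 8 0x580068
 (.cons 16 0xd88
 .nil)))))))))

noncomputable def Bn7 : Net :=
 (.cons 16 0x600c
 (.cons 8 0x400000
 (.cons 4 0x10d09
 (.cons 2 0x200220
 (.cons 1 0x404004
 (.cons 2 0x201001
 (.cons 4 0x20401
 (.cons 8 0x20008c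
 (.cons 16 0x6010
 .nil)))))))))

noncomputable def Bn8 : Net :=
 (.cons 16 0x8267
 (.cons 8 0x82002d
 (.cons 4 0x4020d
 (.cons 2 0x321200
 (.cons 1 0x40404
 (.cons 2 0x202
 (.cons 4 0xc0200
 (.cons 8 0x82001c
 (.cons 16 0x8263
 .nil)))))))))

noncomputable def Bn9 : Net :=
 (.cons 16 0x3011
 (.cons 8 0x600093
 (.cons 4 0xc02
 (.cons 2 0x10022021
 (.cons 1 0x10041440
 (.cons 2 0x22020
 (.cons 4 0x20800
 (.cons 8 0x600092
 (.cons 16 0x3001
 .nil)))))))))

noncomputable def Bn10 : Net :=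
 (.cons 16 0x47c6
 (.cons 8 0x4100b2
 (.cons 4 0x5020c
 (.cons 2 0x2102021
 (.cons 1 0x4141004
 (.cons 2 0x2220000
 (.cons 4 0x406020c
 (.cons 8 0x40002
 (.cons 16 0x4712
 .nil)))))))))

noncomputable def Bn11 : Net :=
 (.cons 16 0x950d
 (.cons 8 0x3d0040
 (.cons 4 0x2080a03
 (.cons 2 0x23000011
 (.cons 1 0x14044001
 (.cons 2 0x20022000
 (.cons 4 0x2080800
 (.cons 8 0x280022
 (.cons 16 0x9534
 .nil)))))))))

noncomputable def Bn12 : Net :=
 (.cons 16 0x3600
 (.cons 8 0x1c00a1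
 (.cons 4 0x6040600
 (.cons 2 0x12110112
 (.cons 1 0x10110445
 (.cons 2 0x200
 (.cons 4 0x6000604
 (.cons 8 0x800a8
 (.cons 16 0x3646
 .nil)))))))))

noncomputable def Bn13 : Net :=
 (.cons 16 0x2635
 (.cons 8 0x260078
 (.cons 4 0xa0801
 (.cons 2 0x2100211
 (.cons 1 0x4101144
 (.cons 2 0x2200202
 (.cons 4 0xa0100
 (.cons 8 0xa0
 (.cons 16 0x266b
 .nil)))))))))

noncomputable def Bn14 : Net :=
 (.cons 16 0xb6
 (.cons 8 0x6a
 (.cons 4 0x90002
 (.cons 2 0x210100
 (.cons 1 0x1014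
 (.cons 2 0x2000
 (.cons 4 0x406
 (.cons 8 0x68
 (.cons 16 0xb6
 .nil)))))))))

noncomputable def Bn15 : Net :=
 (.cons 16 0x1151
 (.cons 8 0x100e4
 (.cons 4 0x2040d
 (.cons 2 0x12031
 (.cons 1 0x110440
 (.cons 4 0x20c08
 (.cons 8 0x110088
 (.cons 16 0x1159
 .nil))))))))

noncomputable def Bn16 : Net :=
 (.cons 16 0x14c
 (.cons 8 0x88
 (.cons 4 0x50a04
 (.cons 1 0x111444
 (.cons 2 0x2210
 (.cons 4 0xc04
 (.cons 8 0x100e0
 (.cons 16 0x148
 .nil))))))))

noncomputable def Bn17 : Net :=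
 (.cons 16 0x145
 (.cons 8 0x30058
 (.cons 4 0x10000
 (.cons 2 0x20003
 (.cons 1 0x1114001
 (.cons 2 0x122000
 (.cons 4 0xc020a
 (.cons 8 0x3000c
 (.cons 16 0x180
 .nil)))))))))

noncomputable def Bn18 : Net :=
 (.cons 16 0xe0a2
 (.cons 8 0x200080
 (.cons 4 0x10b06
 (.cons 2 0x120002
 (.cons 1 0x40401410
 (.cons 2 0x20000110
 (.cons 4 0x20206
 (.cons 8 0x800082
 (.cons 16 0xe010
 .nil)))))))))

noncomputable def Bn19 : Net :=
 (.cons 16 0x88a7
 (.cons 8 0xd00043
 (.cons 4 0x8000000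
 (.cons 2 0x200113
 (.cons 1 0x40001001
 (.cons 2 0x10001000
 (.cons 4 0x20408
 (.cons 8 0x500001
 (.cons 16 0x8805
 .nil)))))))))

noncomputable def Bn20 : Net :=
 (.cons 16 0x24c3
 (.cons 8 0xd00002
 (.cons 4 0x8020007
 (.cons 2 0x22000
 (.cons 1 0x14041101
 (.cons 2 0x10002202
 (.cons 4 0xc000102
 (.cons 8 0xd00009
 (.cons 16 0x24a3
 .nil)))))))))

noncomputable def Bn21 : Net :=
 (.cons 16 0xa62e
 (.cons 8 0x5100e8
 (.cons 4 0x70a0208
 (.cons 2 0x30220202
 (.cons 1 0x41044144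
 (.cons 2 0x1021002
 (.cons 4 0x8020c
 (.cons 8 0x5100a8
 (.cons 16 0xa608
 .nil)))))))))

noncomputable def Bn22 : Net :=
 (.cons 16 0x8001
 (.cons 8 0x8000b5
 (.cons 4 0x20202
 (.cons 2 0x123010
 (.cons 1 0x440501
 (.cons 2 0x220002
 (.cons 4 0x20a03
 (.cons 8 0x800094
 (.cons 16 0x8009
 .nil)))))))))

noncomputable def Bn23 : Net :=
 (.cons 16 0x2845
 (.cons 8 0x8002d
 (.cons 4 0x80c0300
 (.cons 2 0x20200301
 (.cons 1 0x101100
 (.cons 2 0x2000
 (.cons 4 0x80a0601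
 (.cons 8 0x200078
 (.cons 16 0x2845
 .nil)))))))))

noncomputable def Bn24 : Net :=
 (.cons 16 0x60
 (.cons 8 0x85
 (.cons 4 0x4000a
 (.cons 2 0x200200
 (.cons 1 0x415405
 (.cons 2 0x200200
 (.cons 4 0x4000a
 (.cons 8 0x85
 (.cons 16 0x20
 .nil)))))))))

noncomputable def Bn25 : Net :=
 (.cons 16 0x2309
 (.cons 8 0x10011
 (.cons 4 0x2020c06
 (.cons 2 0x100012
 (.cons 1 0x110440
 (.cons 2 0x10100
 (.cons 4 0x20406
 (.cons 8 0x30045
 (.cons 16 0x2329
 .nil)))))))))

noncomputable def Bn26 : Net :=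
 (.cons 16 0x4851
 (.cons 8 0x300002
 (.cons 4 0x8000302
 (.cons 2 0x10010102
 (.cons 1 0x10040040
 (.cons 2 0x20020020
 (.cons 4 0x8000002
 (.cons 8 0x300006
 (.cons 16 0x4811
 .nil)))))))))

noncomputable def Bn27 : Net :=
 (.cons 16 0xc490
 (.cons 8 0x8c0029
 (.cons 4 0x201
 (.cons 2 0x10220
 (.cons 1 0x4010144
 (.cons 4 0x4030200
 (.cons 8 0xc0028
 (.cons 16 0xc414
 .nil))))))))

noncomputable def Bn28 : Net :=
 (.cons 16 0x8834
 (.cons 8 0x9a0067
 (.cons 4 0x102060d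
 (.cons 2 0x11230
 (.cons 1 0x1410404
 (.cons 2 0x2020200
 (.cons 4 0x1020004
 (.cons 8 0x1a0001
 (.cons 16 0x881c
 .nil)))))))))

noncomputable def Bn29 : Net :=
 (.cons 16 0x7451
 (.cons 8 0x6200d1
 (.cons 4 0x2050002
 (.cons 2 0x2220222
 (.cons 1 0x14014101
 (.cons 2 0x2020200
 (.cons 4 0x10102
 (.cons 8 0x620050
 (.cons 16 0x7449
 .nil)))))))))

noncomputable def Bn30 : Net :=
 (.cons 16 0x1c31
 (.cons 8 0x1000e8
 (.cons 4 0x1000607
 (.cons 2 0x22000
 (.cons 1 0x4000410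
 (.cons 2 0x1000210
 (.cons 4 0x1000400
 (.cons 8 0xc0008
 (.cons 16 0x1c51
 .nil)))))))))

noncomputable def Bn31 : Net :=
 (.cons 16 0x550c
 (.cons 8 0x170028
 (.cons 4 0x20803
 (.cons 2 0x11012021
 (.cons 1 0x1010004
 (.cons 4 0x20801
 (.cons 8 0x20028
 (.cons 16 0x5504
 .nil))))))))

noncomputable def Bn32 : Net :=
 (.cons 16 0x4238
 (.cons 8 0x400044
 (.cons 4 0x4000101
 (.cons 2 0x2102100
 (.cons 1 0x4114404
 (.cons 2 0x2020001
 (.cons 4 0x4020001
 (.cons 8 0x400044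
 (.cons 16 0x4244
 .nil)))))))))

noncomputable def Bn33 : Net :=
 (.cons 16 0x1f
 (.cons 8 0x5e
 (.cons 4 0xc0103
 (.cons 2 0x200212
 (.cons 1 0x504001
 (.cons 2 0x2000
 (.cons 4 0xc0006
 (.cons 8 0xc2
 (.cons 16 0x43
 .nil)))))))))

noncomputable def Bn34 : Net :=
 (.cons 16 0x44b
 (.cons 8 0x400b4
 (.cons 4 0xc0e01
 (.cons 2 0x103002
 (.cons 1 0x500140
 (.cons 2 0x220
 (.cons 4 0xc0000
 (.cons 8 0x2c
 (.cons 16 0x45f
 .nil)))))))))

noncomputable def Bn35 : Net :=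
 (.cons 16 0x1003
 (.cons 8 0x80080
 (.cons 4 0x8040e09
 (.cons 2 0x20100301
 (.cons 1 0x10104011
 (.cons 2 0x20000020
 (.cons 4 0x8040808
 (.cons 8 0x18008d
 (.cons 16 0x103b
 .nil)))))))))

noncomputable def Bn36 : Net :=
 (.cons 16 0x409
 (.cons 8 0x170042
 (.cons 4 0x300090c
 (.cons 2 0x1200222
 (.cons 1 0x10441140
 (.cons 2 0x220
 (.cons 4 0x2040008
 (.cons 8 0x1300e0
 (.cons 16 0x4a3
 .nil)))))))))

noncomputable def Bn37 : Net :=
 (.cons 16 0x2d74
 (.cons 8 0xd00e8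
 (.cons 4 0x20d0809
 (.cons 2 0x232013
 (.cons 1 0x5140005
 (.cons 4 0x200000c
 (.cons 8 0x90038
 (.cons 16 0x2d04
 .nil))))))))

noncomputable def Bn38 : Net :=
 (.cons 16 0x4c85
 (.cons 8 0x5a0070
 (.cons 4 0x6000408
 (.cons 2 0x10001
 (.cons 1 0x10400110
 (.cons 2 0x10000120
 (.cons 4 0x2080408
 (.cons 8 0x520062
 (.cons 16 0x4c80
 .nil)))))))))

noncomputable def Bn39 : Net :=
 (.cons 16 0x6830
 (.cons 8 0x410063
 (.cons 4 0x6080e08
 (.cons 2 0x3101220
 (.cons 1 0x1100110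
 (.cons 2 0x200020
 (.cons 4 0x60c0800
 (.cons 8 0x290064
 (.cons 16 0x6874
 .nil)))))))))

noncomputable def Bn40 : Net :=
 (.cons 16 0x2825
 (.cons 8 0x6002c
 (.cons 4 0x5
 (.cons 2 0x201212
 (.cons 1 0x4401144
 (.cons 2 0x2202002
 (.cons 4 0x2000904
 (.cons 8 0x6002c
 (.cons 16 0x282d
 .nil)))))))))

noncomputable def Bn41 : Net :=
 (.cons 16 0x716
 (.cons 8 0xe00c8
 (.cons 4 0x50004
 (.cons 2 0x122010
 (.cons 1 0x5040014
 (.cons 2 0x20002
 (.cons 4 0x20800
 (.cons 8 0x800d0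
 (.cons 16 0x72a
 .nil)))))))))

noncomputable def Bn42 : Net :=
 (.cons 16 0x8071
 (.cons 8 0x800070
 (.cons 4 0x60a08
 (.cons 2 0x203000
 (.cons 1 0x405014
 (.cons 2 0x1
 (.cons 4 0x80c
 (.cons 8 0x80005c
 (.cons 16 0x8009
 .nil)))))))))

noncomputable def Bn43 : Net :=
 (.cons 16 0xc346
 (.cons 8 0x60002c
 (.cons 4 0x2040808
 (.cons 2 0x120002
 (.cons 1 0x41011004
 (.cons 2 0x20022000
 (.cons 4 0x10804
 (.cons 8 0x60001c
 (.cons 16 0xc346
 .nil)))))))))

noncomputable def Bn44 : Net :=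
 (.cons 16 0xaa
 (.cons 8 0x78
 (.cons 4 0x102
 (.cons 2 0x20002
 (.cons 1 0x111414
 (.cons 2 0x122002
 (.cons 4 0x80106
 (.cons 8 0x60
 (.cons 16 0xaa
 .nil)))))))))

noncomputable def Bn45 : Net :=
 (.cons 16 0x307e
 (.cons 8 0x20003c
 (.cons 4 0x30900
 (.cons 2 0x11302
 (.cons 1 0x44404
 (.cons 2 0x22000
 (.cons 4 0x2000c
 (.cons 8 0x10003c
 (.cons 16 0x3066
 .nil)))))))))

noncomputable def Bn46 : Net :=
 (.cons 16 0xcb1
 (.cons 8 0x800a2
 (.cons 4 0x50a03
 (.cons 2 0x11212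
 (.cons 1 0x141014
 (.cons 4 0xa08
 (.cons 8 0xc00c2
 (.cons 16 0xc05
 .nil))))))))

noncomputable def Bn47 : Net :=
 (.cons 16 0x6017
 (.cons 8 0x60002f
 (.cons 4 0x50b0c
 (.cons 2 0x310312
 (.cons 1 0x401044
 (.cons 2 0x2002
 (.cons 4 0x40808
 (.cons 8 0x400030
 (.cons 16 0x6098
 .nil)))))))))

noncomputable def Bn48 : Net :=
 (.cons 16 0xd251
 (.cons 8 0x1a0000
 (.cons 4 0x8050201
 (.cons 2 0x2020122
 (.cons 1 0x40440141
 (.cons 2 0x120202
 (.cons 4 0x10205
 (.cons 8 0x8002c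
 (.cons 16 0xd205
 .nil)))))))))

noncomputable def Bn49 : Net :=
 (.cons 16 0x30d5
 (.cons 8 0x20080
 (.cons 4 0x2010109
 (.cons 2 0x122201
 (.cons 1 0x10411000
 (.cons 2 0x222000
 (.cons 4 0x2010104
 (.cons 8 0x2200c1
 (.cons 16 0x301c
 .nil)))))))))

noncomputable def Bn50 : Net :=
 (.cons 16 0x6086
 (.cons 8 0xc00050
 (.cons 4 0x9010a
 (.cons 2 0x20000320
 (.cons 1 0x40404514
 (.cons 2 0x100020
 (.cons 4 0x80908
 (.cons 8 0xe0004a
 (.cons 16 0x6086
 .nil)))))))))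

noncomputable def Bn51 : Net :=
 (.cons 16 0x2126
 (.cons 8 0x1005c
 (.cons 4 0x2080c01
 (.cons 2 0x110020
 (.cons 1 0x1144441
 (.cons 2 0x1000
 (.cons 4 0x2080001
 (.cons 8 0x200082
 (.cons 16 0x2172
 .nil)))))))))

noncomputable def Bn52 : Net :=
 (.cons 16 0xa598
 (.cons 8 0x2c0078
 (.cons 4 0x2090a00
 (.cons 2 0x1202010
 (.cons 1 0x5445000
 (.cons 2 0x220000
 (.cons 4 0xa080800
 (.cons 8 0xa80020
 (.cons 16 0xa598
 .nil)))))))))

noncomputable def Bn53 : Net :=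
 (.cons 16 0xe1e
 (.cons 8 0x60004
 (.cons 4 0x50403
 (.cons 2 0x23022
 (.cons 1 0x4101041
 (.cons 2 0x100002
 (.cons 4 0x20001
 (.cons 8 0xa00d4
 (.cons 16 0xe3a
 .nil)))))))))

noncomputable def Bn54 : Net :=
 (.cons 16 0x6110
 (.cons 8 0x640010
 (.cons 4 0x2050608
 (.cons 2 0x13010
 (.cons 1 0x1011010
 (.cons 2 0x1020020
 (.cons 4 0x6040608
 (.cons 8 0x44001c
 (.cons 16 0x6110
 .nil)))))))))

noncomputable def Bn55 : Net :=
 (.cons 16 0x210d
 (.cons 8 0x200052
 (.cons 4 0x2030001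
 (.cons 2 0x230012
 (.cons 1 0x1444410
 (.cons 2 0x201000
 (.cons 4 0x2010006
 (.cons 8 0x1e
 (.cons 16 0x2159
 .nil)))))))))

noncomputable def B : List Net := [Bn0, Bn1, Bn2, Bn3, Bn4, Bn5, Bn6, Bn7, Bn8, Bn9, Bn10, Bn11, Bn12, Bn13, Bn14, Bn15, Bn16, Bn17, Bn18, Bn19, Bn20, Bn21, Bn22, Bn23, Bn24, Bn25, Bn26, Bn27, Bn28, Bn29, Bn30, Bn31, Bn32, Bn33, Bn34, Bn35, Bn36, Bn37, Bn38, Bn39, Bn40, Bn41, Bn42, Bn43, Bn44, Bn45, Bn46, Bn47, Bn48, Bn49, Bn50, Bn51, Bn52, Bn53, Bn54, Bn55]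

theorem hB : okA (2 ^ 5) B = true := by decide +kernel

theorem mB : m24OK B = true := by decide +kernel

theorem fin56 {H : Subgroup M24} (hH : H ≤ stP 0 ⊓ stP 23) (htr : orbF H (pt 1) = ofMask 0x7ffffe)
    (hc : Nat.card H = 7920) {G z m r4 r5 : ℕ} (hG : H ⊓ stP 1 ≤ stS G) {g4 g5 : List (List ℕ)}
    {cs : List (ℕ × ℕ)} (h4 : ∀ w ∈ g4, el hB mB w ∈ H ⊓ stP 1)
    (h5 : ∀ w ∈ g5, el hB mB w ∈ H ⊓ stP z) (c4 : coverB B g4 r4 [z] G = true)
    (c5 : orbsB B g5 r5 cs = true)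
    (hl : ∀ x ∈ unions (cs.map Prod.snd), (pc x = 6 ∧ x.testBit z = false ∧ x.testBit 0 = false ∧
      x.testBit 23 = false) → x ∈ [m])
    (hn : z < 24 ∧ Nat.testBit 0x7ffffe z = true ∧ pc G = 6 ∧ G.testBit 1 = false ∧
      G.testBit 0 = false ∧ G.testBit 23 = false ∧ m ^^^ 2 ^ z = G ^^^ 2 ^ 1 ∧
      G ^^^ 2 ^ 1 = G ||| 2 ^ 1 ∧ pc (G ^^^ 2 ^ 1) = 7) : False := by
  obtain ⟨hz, n1, n2, n3, n4, n5, n6, n7, n8⟩ := hn
  obtain ⟨h, hh, e⟩ := mem_orbF.1 (htr ▸ (pt_mem_ofMask hz).2 n1)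
  have h1 := conj_stab hG hh
  rw [show h • pt 1 = pt z from e] at h1
  have h2 : ∀ i < 24, G.testBit i = false → (h : Perm GolayPt) (pt i) ∉ h • ofMask G :=
    fun i hi h3 h4 => by
      have := (pt_mem_ofMask hi).1 (apply_mem_smul.1 h4)
      rw [h3] at this
      cases this
  obtain ⟨x, hx, e2⟩ := inv_mem hB mB h5 c5 h1 (fun x hx => ⟨by
      rw [← card_ofMask, hx, Finset.card_smul_finset, card_ofMask, n2],
      bit_of_notMem hz hx (e ▸ h2 1 (by omega) n3),
      bit_of_notMem (by omega) hx (mem_stab_pt.1 (hH hh).1 ▸ h2 0 (by omega) n4),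
      bit_of_notMem (by omega) hx (mem_stab_pt.1 (hH hh).2 ▸ h2 23 (by omega) n5)⟩) hl
  rw [List.mem_singleton.1 hx] at e2
  have h6 := smul_xor_pt (by omega) hz e e2 rfl n6
  have h7 : H ⊓ stP 1 ≤ H ⊓ stS (G ^^^ 2 ^ 1) :=
    le_inf inf_le_left (le_stab_xor hG (sp_le_ss (by omega) inf_le_right) rfl)
  have h8 : orbF (H ⊓ stS (G ^^^ 2 ^ 1)) (pt 1) = ofMask (G ^^^ 2 ^ 1) := by
    have h9 : ofMask (G ^^^ 2 ^ 1) = ofMask G ∪ {pt 1} := by
      rw [n7, ofMask_or, ofMask_two_pow (by omega)]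
    refine Finset.Subset.antisymm (orbF_subset inf_le_right (by rw [h9]; simp)) ?_
    conv_lhs => rw [h9]
    exact Finset.union_subset ((cover_orbF hB mB (fun w hw => h7 (h4 w hw)) hz c4).trans
      (orbF_trans (mem_orbF.2 ⟨h, ⟨hh, h6⟩, e⟩))) (Finset.singleton_subset_iff.2 (self_mem_orbF _ _))
  have h9 := (card_orbF_dvd _ (pt 1)).trans
    (Subgroup.card_dvd_of_le (inf_le_left : H ⊓ stS (G ^^^ 2 ^ 1) ≤ H))
  rw [h8, card_ofMask, n8, hc] at h9
  exact absurd h9 (by decide)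

/-- a Sylow 3-subgroup of `M22` -/
noncomputable def Q9 : Subgroup M24 := (toM24 P9.hA m9 0).range

theorem Q9_p : IsPGroup 3 Q9 := IsPGroup.of_card (n := 2) ((card_range _ _
  (P9.fixTriv0 (by show _ < 24; omega) (by show _ < 24; omega))).trans P9.card0)

theorem Q9_le : Q9 ≤ stP 0 ⊓ stP 23 ⊓ stP 1 := range_le _ _ fun w hw =>
  ⟨⟨fixP _ _ (by omega) (by decide +kernel) w hw, fixP _ _ (by omega) (by decide +kernel) w hw⟩,
    fixP _ _ (by omega) (by decide +kernel) w hw⟩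

theorem core56 {H : Subgroup M24} (hH : H ≤ stP 0 ⊓ stP 23) (hQ : Q9 ≤ H)
    (hc : Nat.card H = 7920) : False := by
  have htr := trans22 hH (by rw [hc]; decide) (by omega)
  have hJ : Nat.card ↥(H ⊓ stP 1) = 360 := by
    have := card_orbF H (pt 1)
    rw [htr, card_ofMask, show pc 0x7ffffe = 22 by decide +kernel] at this
    omega
  have h0 : H ⊓ stP 1 ≤ stP 0 := inf_le_left.trans (hH.trans inf_le_left)
  have h23 : H ⊓ stP 1 ≤ stP 23 := inf_le_left.trans (hH.trans inf_le_right)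
  have h1 : H ⊓ stP 1 ≤ stP 1 := inf_le_right
  have hs := le_stab_orbF (H ⊓ stP 1) (pt 2)
  have n0 := notMem_orbF h0 (show pt 2 ≠ pt 0 by decide)
  have n1 := notMem_orbF h1 (show pt 2 ≠ pt 1 by decide)
  have n23 := notMem_orbF h23 (show pt 2 ≠ pt 23 by decide)
  have h5 : (orbF (H ⊓ stP 1) (pt 2)).card % 5 < 2 := by
    obtain ⟨v, hv, a1, a2⟩ := exists_pow_prime (p := 5) (by norm_num) (H := H ⊓ stP 1)
      (by rw [hJ]; decide)
    rw [fix_modEq (by norm_num) a2 (hs hv)]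
    have a3 := card_fixF_lt (by norm_num) le_rfl a1 a2
    have a4 : ({pt 0, pt 1, pt 23} : Finset GolayPt) ⊆ fixF v := by
      intro p hp
      simp only [Finset.mem_insert, Finset.mem_singleton] at hp
      rcases hp with rfl | rfl | rfl
      · exact mem_fixF.2 (h0 hv)
      · exact mem_fixF.2 (h1 hv)
      · exact mem_fixF.2 (h23 hv)
    have a5 : orbF (H ⊓ stP 1) (pt 2) ∩ fixF v ⊆ fixF v \ {pt 0, pt 1, pt 23} := by
      intro p hp
      rw [Finset.mem_inter] at hp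
      refine Finset.mem_sdiff.2 ⟨hp.2, fun h => ?_⟩
      simp only [Finset.mem_insert, Finset.mem_singleton] at h
      rcases h with rfl | rfl | rfl
      · exact n0 hp.1
      · exact n1 hp.1
      · exact n23 hp.1
    have a6 := Finset.card_le_card a5
    rw [Finset.card_sdiff_of_subset a4,
      show ({pt 0, pt 1, pt 23} : Finset GolayPt).card = 3 by decide] at a6
    omega
  obtain ⟨m, hm, e⟩ := inv_mem P9.hA m9 (fun w hw => (le_inf hQ (Q9_le.trans inf_le_right))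
    (el_mem_range _ _ w hw)) (r := 3) (cs := [(0, 0x1), (1, 0x2), (2, 0x135c14), (3, 0x80028), (6, 0x8240), (7, 0x402080), (8, 0x240100), (23, 0x800000)]) (by decide +kernel) hs
    (P := fun m => m.testBit 2 = true ∧ m.testBit 0 = false ∧ m.testBit 1 = false ∧
      m.testBit 23 = false ∧ pc m ∣ 360 ∧ pc m % 5 < 2)
    (fun m hm => ⟨bit_of_mem (by omega) hm (self_mem_orbF _ _), bit_of_notMem (by omega) hm n0,
      bit_of_notMem (by omega) hm n1, bit_of_notMem (by omega) hm n23,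
      by rw [← card_ofMask, hm, ← hJ]; exact card_orbF_dvd _ _, by rw [← card_ofMask, hm]; exact h5⟩)
    (l := [0x777d94, 0x37df54, 0x53fed4, 0x3f5d3c, 0x5b7cbc, 0x1bde7c]) (by decide +kernel)
  rw [e] at hs
  simp only [List.mem_cons, List.not_mem_nil, or_false] at hm
  rcases hm with rfl | rfl | rfl | rfl | rfl | rfl
  · have hG : H ⊓ stP 1 ≤ stS 0x88268 := le_stab_xor (le_stab_xor (le_stab_xor (le_stab_xor hs
      (le_stab_full _) rfl) (sp_le_ss (by omega) h0) rfl) (sp_le_ss (by omega) h1) rfl)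
      (sp_le_ss (by omega) h23) (by decide)
    have hO : H ⊓ stP 1 ≤ stS 0x888269 := le_stab_xor (le_stab_xor hs (le_stab_full _) rfl)
      (sp_le_ss (by omega) h1) (by decide)
    have c1 := card_le_cover hB mB (H := stS 0x888269) (gens := [[gw 0], [gw 1]]) (fun w hw => fixS _ _ (by decide +kernel) w hw)
      (a := 1) (by omega) (r := 6) (m := 0x777d96) (c := 20160) (by decide +kernel)
      (card_stab_octad (octad_of_mask (by decide +kernel))).le (by decide +kernel)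
    have c2 := card_le_cover hB mB (H := stS 0x888269 ⊓ stP 1) (gens := [[gw 2], [gw 3]]) (fun w hw => ⟨fixS _ _ (by decide +kernel) w hw, fixP _ _ (by omega) (by decide +kernel) w hw⟩)
      (a := 0) (by omega) (r := 4) (m := 0x888269) (c := 2520) (by decide +kernel) c1
      (by decide +kernel)
    have c3 := card_le_cover hB mB (H := stS 0x888269 ⊓ stP 1 ⊓ stP 0) (gens := [[gw 4], [gw 5]]) (fun w hw => ⟨⟨fixS _ _ (by decide +kernel) w hw, fixP _ _ (by omega) (by decide +kernel) w hw⟩, fixP _ _ (by omega) (by decide +kernel) w hw⟩)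
      (a := 23) (by omega) (r := 4) (m := 0x888268) (c := 360) (by decide +kernel) c2
      (by decide +kernel)
    have e := Subgroup.eq_of_le_of_card_ge (le_inf (le_inf (le_inf hO h1) h0) h23) (hJ ▸ c3)
    exact fin56 hH htr hc hG (z := 3) (g4 := [[gw 6], [gw 7]]) (g5 := [[gw 8], [gw 9]]) (r4 := 3) (r5 := 4)
      (cs := [(0, 0x1), (1, 0x2), (2, 0x777d94), (3, 0x8), (5, 0x88260), (23, 0x800000)]) (m := 0x88262)
      (fun w hw => e.ge ⟨⟨⟨fixS _ _ (by decide +kernel) w hw, fixP _ _ (by omega) (by decide +kernel) w hw⟩, fixP _ _ (by omega) (by decide +kernel) w hw⟩, fixP _ _ (by omega) (by decide +kernel) w hw⟩)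
      (fun w hw => ⟨(e.ge ⟨⟨⟨fixS _ _ (by decide +kernel) w hw, fixP _ _ (by omega) (by decide +kernel) w hw⟩, fixP _ _ (by omega) (by decide +kernel) w hw⟩, fixP _ _ (by omega) (by decide +kernel) w hw⟩).1, fixP _ _ (by omega) (by decide +kernel) w hw⟩)
      (by decide +kernel) (by decide +kernel) (by decide +kernel) (by decide +kernel)
  · have hG : H ⊓ stP 1 ≤ stS 0x4820a8 := le_stab_xor (le_stab_xor (le_stab_xor (le_stab_xor hs
      (le_stab_full _) rfl) (sp_le_ss (by omega) h0) rfl) (sp_le_ss (by omega) h1) rfl)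
      (sp_le_ss (by omega) h23) (by decide)
    have hO : H ⊓ stP 1 ≤ stS 0x4820ab := le_stab_xor (le_stab_xor hs (le_stab_full _) rfl)
      (sp_le_ss (by omega) h23) (by decide)
    have c1 := card_le_cover hB mB (H := stS 0x4820ab) (gens := [[gw 10], [gw 11]]) (fun w hw => fixS _ _ (by decide +kernel) w hw)
      (a := 23) (by omega) (r := 5) (m := 0xb7df54) (c := 20160) (by decide +kernel)
      (card_stab_octad (octad_of_mask (by decide +kernel))).le (by decide +kernel)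
    have c2 := card_le_cover hB mB (H := stS 0x4820ab ⊓ stP 23) (gens := [[gw 12], [gw 13]]) (fun w hw => ⟨fixS _ _ (by decide +kernel) w hw, fixP _ _ (by omega) (by decide +kernel) w hw⟩)
      (a := 0) (by omega) (r := 4) (m := 0x4820ab) (c := 2520) (by decide +kernel) c1
      (by decide +kernel)
    have c3 := card_le_cover hB mB (H := stS 0x4820ab ⊓ stP 23 ⊓ stP 0) (gens := [[gw 13], [gw 14]]) (fun w hw => ⟨⟨fixS _ _ (by decide +kernel) w hw, fixP _ _ (by omega) (by decide +kernel) w hw⟩, fixP _ _ (by omega) (by decide +kernel) w hw⟩)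
      (a := 1) (by omega) (r := 5) (m := 0x4820aa) (c := 360) (by decide +kernel) c2
      (by decide +kernel)
    have e := Subgroup.eq_of_le_of_card_ge (le_inf (le_inf (le_inf hO h23) h0) h1) (hJ ▸ c3)
    exact fin56 hH htr hc hG (z := 3) (g4 := [[gw 14], [gw 15]]) (g5 := [[gw 16], [gw 14]]) (r4 := 4) (r5 := 4)
      (cs := [(0, 0x1), (1, 0x2), (2, 0x37df54), (3, 0x8), (5, 0x4820a0), (23, 0x800000)]) (m := 0x4820a2)
      (fun w hw => e.ge ⟨⟨⟨fixS _ _ (by decide +kernel) w hw, fixP _ _ (by omega) (by decide +kernel) w hw⟩, fixP _ _ (by omega) (by decide +kernel) w hw⟩, fixP _ _ (by omega) (by decide +kernel) w hw⟩)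
      (fun w hw => ⟨(e.ge ⟨⟨⟨fixS _ _ (by decide +kernel) w hw, fixP _ _ (by omega) (by decide +kernel) w hw⟩, fixP _ _ (by omega) (by decide +kernel) w hw⟩, fixP _ _ (by omega) (by decide +kernel) w hw⟩).1, fixP _ _ (by omega) (by decide +kernel) w hw⟩)
      (by decide +kernel) (by decide +kernel) (by decide +kernel) (by decide +kernel)
  · have hG : H ⊓ stP 1 ≤ stS 0x2c0128 := le_stab_xor (le_stab_xor (le_stab_xor (le_stab_xor hs
      (le_stab_full _) rfl) (sp_le_ss (by omega) h0) rfl) (sp_le_ss (by omega) h1) rfl)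
      (sp_le_ss (by omega) h23) (by decide)
    have hO : H ⊓ stP 1 ≤ stS 0xac012a := le_stab_xor (le_stab_xor hs (le_stab_full _) rfl)
      (sp_le_ss (by omega) h0) (by decide)
    have c1 := card_le_cover hB mB (H := stS 0xac012a) (gens := [[gw 17], [gw 18]]) (fun w hw => fixS _ _ (by decide +kernel) w hw)
      (a := 0) (by omega) (r := 5) (m := 0x53fed5) (c := 20160) (by decide +kernel)
      (card_stab_octad (octad_of_mask (by decide +kernel))).le (by decide +kernel)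
    have c2 := card_le_cover hB mB (H := stS 0xac012a ⊓ stP 0) (gens := [[gw 18], [gw 19]]) (fun w hw => ⟨fixS _ _ (by decide +kernel) w hw, fixP _ _ (by omega) (by decide +kernel) w hw⟩)
      (a := 23) (by omega) (r := 4) (m := 0xac012a) (c := 2520) (by decide +kernel) c1
      (by decide +kernel)
    have c3 := card_le_cover hB mB (H := stS 0xac012a ⊓ stP 0 ⊓ stP 23) (gens := [[gw 20], [gw 21]]) (fun w hw => ⟨⟨fixS _ _ (by decide +kernel) w hw, fixP _ _ (by omega) (by decide +kernel) w hw⟩, fixP _ _ (by omega) (by decide +kernel) w hw⟩)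
      (a := 1) (by omega) (r := 3) (m := 0x2c012a) (c := 360) (by decide +kernel) c2
      (by decide +kernel)
    have e := Subgroup.eq_of_le_of_card_ge (le_inf (le_inf (le_inf hO h0) h23) h1) (hJ ▸ c3)
    exact fin56 hH htr hc hG (z := 3) (g4 := [[gw 22], [gw 23]]) (g5 := [[gw 24], [gw 25]]) (r4 := 3) (r5 := 5)
      (cs := [(0, 0x1), (1, 0x2), (2, 0x53fed4), (3, 0x8), (5, 0x2c0120), (23, 0x800000)]) (m := 0x2c0122)
      (fun w hw => e.ge ⟨⟨⟨fixS _ _ (by decide +kernel) w hw, fixP _ _ (by omega) (by decide +kernel) w hw⟩, fixP _ _ (by omega) (by decide +kernel) w hw⟩, fixP _ _ (by omega) (by decide +kernel) w hw⟩)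
      (fun w hw => ⟨(e.ge ⟨⟨⟨fixS _ _ (by decide +kernel) w hw, fixP _ _ (by omega) (by decide +kernel) w hw⟩, fixP _ _ (by omega) (by decide +kernel) w hw⟩, fixP _ _ (by omega) (by decide +kernel) w hw⟩).1, fixP _ _ (by omega) (by decide +kernel) w hw⟩)
      (by decide +kernel) (by decide +kernel) (by decide +kernel) (by decide +kernel)
  · have hG : H ⊓ stP 1 ≤ stS 0x40a2c0 := le_stab_xor (le_stab_xor (le_stab_xor (le_stab_xor hs
      (le_stab_full _) rfl) (sp_le_ss (by omega) h0) rfl) (sp_le_ss (by omega) h1) rfl)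
      (sp_le_ss (by omega) h23) (by decide)
    have hO : H ⊓ stP 1 ≤ stS 0xc0a2c2 := le_stab_xor (le_stab_xor hs (le_stab_full _) rfl)
      (sp_le_ss (by omega) h0) (by decide)
    have c1 := card_le_cover hB mB (H := stS 0xc0a2c2) (gens := [[gw 26], [gw 27]]) (fun w hw => fixS _ _ (by decide +kernel) w hw)
      (a := 0) (by omega) (r := 4) (m := 0x3f5d3d) (c := 20160) (by decide +kernel)
      (card_stab_octad (octad_of_mask (by decide +kernel))).le (by decide +kernel)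
    have c2 := card_le_cover hB mB (H := stS 0xc0a2c2 ⊓ stP 0) (gens := [[gw 28], [gw 29]]) (fun w hw => ⟨fixS _ _ (by decide +kernel) w hw, fixP _ _ (by omega) (by decide +kernel) w hw⟩)
      (a := 23) (by omega) (r := 5) (m := 0xc0a2c2) (c := 2520) (by decide +kernel) c1
      (by decide +kernel)
    have c3 := card_le_cover hB mB (H := stS 0xc0a2c2 ⊓ stP 0 ⊓ stP 23) (gens := [[gw 30], [gw 31]]) (fun w hw => ⟨⟨fixS _ _ (by decide +kernel) w hw, fixP _ _ (by omega) (by decide +kernel) w hw⟩, fixP _ _ (by omega) (by decide +kernel) w hw⟩)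
      (a := 1) (by omega) (r := 5) (m := 0x40a2c2) (c := 360) (by decide +kernel) c2
      (by decide +kernel)
    have e := Subgroup.eq_of_le_of_card_ge (le_inf (le_inf (le_inf hO h0) h23) h1) (hJ ▸ c3)
    exact fin56 hH htr hc hG (z := 6) (g4 := [[gw 32], [gw 33]]) (g5 := [[gw 34], [gw 35]]) (r4 := 3) (r5 := 4)
      (cs := [(0, 0x1), (1, 0x2), (2, 0x3f5d3c), (6, 0x40), (7, 0x40a280), (23, 0x800000)]) (m := 0x40a282)
      (fun w hw => e.ge ⟨⟨⟨fixS _ _ (by decide +kernel) w hw, fixP _ _ (by omega) (by decide +kernel) w hw⟩, fixP _ _ (by omega) (by decide +kernel) w hw⟩, fixP _ _ (by omega) (by decide +kernel) w hw⟩)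
      (fun w hw => ⟨(e.ge ⟨⟨⟨fixS _ _ (by decide +kernel) w hw, fixP _ _ (by omega) (by decide +kernel) w hw⟩, fixP _ _ (by omega) (by decide +kernel) w hw⟩, fixP _ _ (by omega) (by decide +kernel) w hw⟩).1, fixP _ _ (by omega) (by decide +kernel) w hw⟩)
      (by decide +kernel) (by decide +kernel) (by decide +kernel) (by decide +kernel)
  · have hG : H ⊓ stP 1 ≤ stS 0x248340 := le_stab_xor (le_stab_xor (le_stab_xor (le_stab_xor hs
      (le_stab_full _) rfl) (sp_le_ss (by omega) h0) rfl) (sp_le_ss (by omega) h1) rfl)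
      (sp_le_ss (by omega) h23) (by decide)
    have hO : H ⊓ stP 1 ≤ stS 0x248343 := le_stab_xor (le_stab_xor hs (le_stab_full _) rfl)
      (sp_le_ss (by omega) h23) (by decide)
    have c1 := card_le_cover hB mB (H := stS 0x248343) (gens := [[gw 36], [gw 37]]) (fun w hw => fixS _ _ (by decide +kernel) w hw)
      (a := 23) (by omega) (r := 4) (m := 0xdb7cbc) (c := 20160) (by decide +kernel)
      (card_stab_octad (octad_of_mask (by decide +kernel))).le (by decide +kernel)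
    have c2 := card_le_cover hB mB (H := stS 0x248343 ⊓ stP 23) (gens := [[gw 38], [gw 39]]) (fun w hw => ⟨fixS _ _ (by decide +kernel) w hw, fixP _ _ (by omega) (by decide +kernel) w hw⟩)
      (a := 0) (by omega) (r := 5) (m := 0x248343) (c := 2520) (by decide +kernel) c1
      (by decide +kernel)
    have c3 := card_le_cover hB mB (H := stS 0x248343 ⊓ stP 23 ⊓ stP 0) (gens := [[gw 40], [gw 41]]) (fun w hw => ⟨⟨fixS _ _ (by decide +kernel) w hw, fixP _ _ (by omega) (by decide +kernel) w hw⟩, fixP _ _ (by omega) (by decide +kernel) w hw⟩)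
      (a := 1) (by omega) (r := 4) (m := 0x248342) (c := 360) (by decide +kernel) c2
      (by decide +kernel)
    have e := Subgroup.eq_of_le_of_card_ge (le_inf (le_inf (le_inf hO h23) h0) h1) (hJ ▸ c3)
    exact fin56 hH htr hc hG (z := 6) (g4 := [[gw 42], [gw 43]]) (g5 := [[gw 44], [gw 45]]) (r4 := 3) (r5 := 4)
      (cs := [(0, 0x1), (1, 0x2), (2, 0x5b7cbc), (6, 0x40), (8, 0x248300), (23, 0x800000)]) (m := 0x248302)
      (fun w hw => e.ge ⟨⟨⟨fixS _ _ (by decide +kernel) w hw, fixP _ _ (by omega) (by decide +kernel) w hw⟩, fixP _ _ (by omega) (by decide +kernel) w hw⟩, fixP _ _ (by omega) (by decide +kernel) w hw⟩)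
      (fun w hw => ⟨(e.ge ⟨⟨⟨fixS _ _ (by decide +kernel) w hw, fixP _ _ (by omega) (by decide +kernel) w hw⟩, fixP _ _ (by omega) (by decide +kernel) w hw⟩, fixP _ _ (by omega) (by decide +kernel) w hw⟩).1, fixP _ _ (by omega) (by decide +kernel) w hw⟩)
      (by decide +kernel) (by decide +kernel) (by decide +kernel) (by decide +kernel)
  · have hG : H ⊓ stP 1 ≤ stS 0x642180 := le_stab_xor (le_stab_xor (le_stab_xor (le_stab_xor hs
      (le_stab_full _) rfl) (sp_le_ss (by omega) h0) rfl) (sp_le_ss (by omega) h1) rfl)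
      (sp_le_ss (by omega) h23) (by decide)
    have hO : H ⊓ stP 1 ≤ stS 0xe42181 := le_stab_xor (le_stab_xor hs (le_stab_full _) rfl)
      (sp_le_ss (by omega) h1) (by decide)
    have c1 := card_le_cover hB mB (H := stS 0xe42181) (gens := [[gw 46], [gw 47]]) (fun w hw => fixS _ _ (by decide +kernel) w hw)
      (a := 1) (by omega) (r := 5) (m := 0x1bde7e) (c := 20160) (by decide +kernel)
      (card_stab_octad (octad_of_mask (by decide +kernel))).le (by decide +kernel)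
    have c2 := card_le_cover hB mB (H := stS 0xe42181 ⊓ stP 1) (gens := [[gw 48], [gw 49]]) (fun w hw => ⟨fixS _ _ (by decide +kernel) w hw, fixP _ _ (by omega) (by decide +kernel) w hw⟩)
      (a := 0) (by omega) (r := 3) (m := 0xe42181) (c := 2520) (by decide +kernel) c1
      (by decide +kernel)
    have c3 := card_le_cover hB mB (H := stS 0xe42181 ⊓ stP 1 ⊓ stP 0) (gens := [[gw 50], [gw 51]]) (fun w hw => ⟨⟨fixS _ _ (by decide +kernel) w hw, fixP _ _ (by omega) (by decide +kernel) w hw⟩, fixP _ _ (by omega) (by decide +kernel) w hw⟩)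
      (a := 23) (by omega) (r := 4) (m := 0xe42180) (c := 360) (by decide +kernel) c2
      (by decide +kernel)
    have e := Subgroup.eq_of_le_of_card_ge (le_inf (le_inf (le_inf hO h1) h0) h23) (hJ ▸ c3)
    exact fin56 hH htr hc hG (z := 7) (g4 := [[gw 52], [gw 53]]) (g5 := [[gw 54], [gw 55]]) (r4 := 3) (r5 := 4)
      (cs := [(0, 0x1), (1, 0x2), (2, 0x1bde7c), (7, 0x80), (8, 0x642100), (23, 0x800000)]) (m := 0x642102)
      (fun w hw => e.ge ⟨⟨⟨fixS _ _ (by decide +kernel) w hw, fixP _ _ (by omega) (by decide +kernel) w hw⟩, fixP _ _ (by omega) (by decide +kernel) w hw⟩, fixP _ _ (by omega) (by decide +kernel) w hw⟩)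
      (fun w hw => ⟨(e.ge ⟨⟨⟨fixS _ _ (by decide +kernel) w hw, fixP _ _ (by omega) (by decide +kernel) w hw⟩, fixP _ _ (by omega) (by decide +kernel) w hw⟩, fixP _ _ (by omega) (by decide +kernel) w hw⟩).1, fixP _ _ (by omega) (by decide +kernel) w hw⟩)
      (by decide +kernel) (by decide +kernel) (by decide +kernel) (by decide +kernel)

theorem index56 {H : Subgroup M24} (hH : H ≤ stP 0 ⊓ stP 23) (hc : Nat.card H = 7920) : False := by
  obtain ⟨k, hk, h⟩ := exists_conj_into (p := 3) (a := 2) (by norm_num) hH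
    (Q9_le.trans inf_le_left) (by rw [hc]; decide) (by rw [card22]; decide) Q9_p
  exact core56 (cj_le hk hH) h (by rw [card_cj, hc])

theorem orbF_univ {H : Subgroup M24} {p : GolayPt} (h : orbF H p = Finset.univ) (q : GolayPt) :
    orbF H q = Finset.univ := by
  obtain ⟨g, hg, e⟩ := mem_orbF.1 (h ▸ Finset.mem_univ q)
  exact Finset.univ_subset_iff.1
    (h ▸ orbF_trans (mem_orbF.2 ⟨g⁻¹, H.inv_mem hg, by rw [← e]; simp⟩))

theorem index276 {H : Subgroup M24} (hu : ub ∈ H) (hc : Nat.card H = 887040) :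
    H = stS 0x800001 := by
  rcases eleven_cases hu with h | h | h | htr
  · have := Subgroup.card_le_of_le h
    rw [card_stab_dodecad dod0] at this
    omega
  · have h1 := card_stab_small (s := ofMask 0x800001) (by decide)
    rw [show (ofMask 0x800001).card = 2 by decide, show Nat.choose 24 2 = 276 by decide +kernel] at h1
    exact Subgroup.eq_of_le_of_card_ge
      (le_stab_xor (h ▸ le_stab_orbF H (pt 1)) (le_stab_full H) (by decide)) (by omega)
  · rw [hc] at h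
    exact absurd h (by decide)
  exfalso
  replace htr := orbF_univ htr (pt 0)
  have hJ : Nat.card ↥(H ⊓ stP 0) = 36960 := by have := Odd.card_J htr; omega
  have h22 : orbF (H ⊓ stP 0) (pt 1) = ofMask 0x7ffffe := by
    rcases eleven_cases (H := H ⊓ stP 0) ⟨hu, ub_0⟩ with h | h | h | h
    · have := Subgroup.card_le_of_le (le_inf h inf_le_right)
      rw [card_stab_dod_in dod0 (by decide)] at this
      omega
    · exact h
    · rw [hJ] at h
      exact absurd h (by decide)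
    · exact absurd (h ▸ Finset.mem_univ _) (notMem_orbF inf_le_right (by decide))
  have h23 : H ⊓ stP 0 ≤ stP 23 := ss_le_sp (by omega) (le_stab_xor (le_stab_xor
    (h22 ▸ le_stab_orbF _ (pt 1)) (le_stab_full _) rfl) (sp_le_ss (by omega) inf_le_right)
    (by decide))
  obtain ⟨v, hv, a1, a2⟩ := exists_pow_prime (p := 7) (by norm_num) (H := H ⊓ stP 0)
    (by rw [hJ]; decide)
  have a3 := card_fixF_lt (by norm_num) (by omega) a1 a2
  have a4 := fix_modEq (by norm_num) a2 (s := Finset.univ) Finset.smul_finset_univ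
  rw [Finset.univ_inter, Finset.card_univ, card_pt] at a4
  have a5 : ({pt 0, pt 23} : Finset GolayPt) ⊆ fixF v := by
    intro p hp
    simp only [Finset.mem_insert, Finset.mem_singleton] at hp
    rcases hp with rfl | rfl
    · exact mem_fixF.2 hv.2
    · exact mem_fixF.2 (h23 hv)
  obtain ⟨z, z1, z2⟩ := Finset.exists_eq_insert_iff.2 ⟨a5, by
    rw [show ({pt 0, pt 23} : Finset GolayPt).card = 2 by decide]; omega⟩
  obtain ⟨h, hh, e⟩ := mem_orbF.1 (htr ▸ Finset.mem_univ z)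
  have b1 := conj_stab h23 hh (show v ∈ H ⊓ stabilizer M24 (h • pt 0) from ⟨hv.1, by
    rw [show h • pt 0 = z from e]; exact mem_fixF.1 (z2 ▸ Finset.mem_insert_self _ _)⟩)
  have b2 : (h : Perm GolayPt) (pt 23) ∈ insert z {pt 0, pt 23} := z2 ▸ mem_fixF.2 b1
  simp only [Finset.mem_insert, Finset.mem_singleton, not_or] at b2 z1
  rcases b2 with b2 | b2 | b2
  · exact absurd ((h : Perm GolayPt).injective (b2.trans e.symm)) (by decide)
  · have b3 := conj_stab h23 (H.inv_mem hh) (show ub ∈ H ⊓ stabilizer M24 (h⁻¹ • pt 0) from ⟨hu, by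
      rw [show h⁻¹ • pt 0 = pt 23 from inv_smul_eq_iff.2 b2.symm]; exact ub_23⟩)
    have b4 : ∀ p, (ub : Perm GolayPt) p = p → p = pt 0 ∨ p = pt 23 := by
      intro p hp
      by_contra hne
      have c1 := card_fixF_lt (p := 11) (by norm_num) (by omega) ub_ne ub_pow
      have c2 := fix_modEq (by norm_num) ub_pow (s := Finset.univ) Finset.smul_finset_univ
      rw [Finset.univ_inter, Finset.card_univ, card_pt] at c2
      have c3 : insert p {pt 0, pt 23} ⊆ fixF ub := by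
        intro q hq
        simp only [Finset.mem_insert, Finset.mem_singleton] at hq
        rcases hq with rfl | rfl | rfl
        · exact mem_fixF.2 hp
        · exact mem_fixF.2 ub_0
        · exact mem_fixF.2 ub_23
      have c4 := Finset.card_le_card c3
      rw [Finset.card_insert_of_notMem (by simpa using hne),
        show ({pt 0, pt 23} : Finset GolayPt).card = 2 by decide] at c4
      omega
    rcases b4 _ b3 with b5 | b5
    · exact z1.2 (e.symm.trans (inv_smul_eq_iff.1 b5).symm)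
    · exact absurd (b2.symm.trans (inv_smul_eq_iff.1 b5).symm) (by decide)
  · have b3 : ofMask 0x7ffffe ⊆ orbF (H ⊓ stP 23) (pt 0) := by
      have b4 : z ∈ orbF (H ⊓ stP 0) (pt 1) := by
        have : ∀ z, z ≠ pt 0 → z ≠ pt 23 → z ∈ ofMask 0x7ffffe := by decide
        exact h22 ▸ this z z1.1 z1.2
      obtain ⟨g, hg, e'⟩ := mem_orbF.1 b4
      rw [← h22]
      refine (orbF_mono (le_inf inf_le_left h23) _).trans (orbF_trans (mem_orbF.2
        ⟨g⁻¹ * h, ⟨H.mul_mem (H.inv_mem hg.1) hh, (stP 23).mul_mem ((stP 23).inv_mem (h23 hg)) b2⟩, ?_⟩))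
      show (g : Perm GolayPt)⁻¹ ((h : Perm GolayPt) (pt 0)) = pt 1
      rw [e, ← e']; simp
    have b4 := Finset.card_le_card b3
    rw [card_ofMask, show pc 0x7ffffe = 22 by decide +kernel] at b4
    have b5 := eq_of_long_orbit (L := H ⊓ stP 23) inf_le_left (le_inf inf_le_left h23)
      (by rw [htr, Finset.card_univ, card_pt]; omega)
    exact notMem_orbF (b5 ▸ inf_le_right) (by decide) (htr ▸ Finset.mem_univ (pt 23))

theorem cover_a {H : Subgroup M24} (h : ua ∈ H) (hH : H ≤ stP 23) :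
    orbF H (pt 0) = ofMask 0x7fffff :=
  Finset.Subset.antisymm (orbF_subset (le_stab_xor (le_stab_full _) (sp_le_ss (by omega) hH)
    (by decide)) (by decide))
    (cover_orbF L23.hA mL (gens_a h) (r := 23) (by omega) (by decide +kernel))

theorem card_norm23 :
    Nat.card ↥(stP 23 ⊓ Subgroup.normalizer (Subgroup.zpowers ua : Set M24)) = 253 := by
  have h1 := card_normalizer_dvd (p := 23) (by norm_num) (stP 23) ua_ne ua_pow
  have h2 := card_orbF (stP 23 ⊓ Subgroup.centralizer {ua}) (pt 0)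
  have h3 : stP 23 ⊓ Subgroup.centralizer {ua} ⊓ stP 0 = ⊥ := by
    rw [eq_bot_iff]
    intro g hg
    have h4 := orbF_subset_fixF hg.1.2 hg.2
    rw [cover_a (Subgroup.mem_zpowers _) (Subgroup.zpowers_le.2 ua_23)] at h4
    exact Subtype.ext (rigid g.2 fun p hp => mem_fixF.1 (h4 (ofMask_subset (by decide) hp)))
  rw [h3, Subgroup.card_bot, mul_one, cover_a (H := stP 23 ⊓ Subgroup.centralizer {ua})
    ⟨ua_23, Subgroup.mem_centralizer_singleton_iff.2 rfl⟩
    inf_le_left, card_ofMask, show pc 0x7fffff = 23 by decide +kernel] at h2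
  rw [← h2] at h1
  obtain ⟨n, h6, h7⟩ := sylow_count (p := 23) (by norm_num) (H := stP 23)
    (Subgroup.zpowers_le.2 ua_23) (card_zpowers_prime (by norm_num) ua_ne ua_pow)
    (by rw [card_stab_pt]; decide)
  rw [card_stab_pt] at h6
  have h8 : ∀ c ≤ 506, c ∣ 506 → 10200960 / c % 23 = 1 → c = 253 := by decide +kernel
  refine h8 _ (Nat.le_of_dvd (by omega) h1) h1 ?_
  rw [← h6, Nat.mul_div_cancel _ Nat.card_pos, h7]

theorem ub_norm : ub ∈ Subgroup.normalizer (Subgroup.zpowers ua : Set M24) := by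
  apply mem_normalizer_zpowers
  have : ub * ua = ua * ua * ub := by
    apply Subtype.ext
    have := (eq24_iff L23.hA mL ([0x208080808] ++ [0x208060a04]) (([0x208060a04] ++ [0x208060a04]) ++ [0x208080808])).1 (by decide +kernel)
    rwa [toG_pp_append L23.hA mL, toG_pp_append L23.hA mL, toG_pp_append L23.hA mL] at this
  rw [this, mul_inv_cancel_right]
  exact Subgroup.mul_mem _ (Subgroup.mem_zpowers _) (Subgroup.mem_zpowers _)

theorem over_F {H : Subgroup M24} (hH : H ≤ stP 23) (ha : ua ∈ H) (hb : ub ∈ H) :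
    Nat.card H = 253 ∨ Nat.card H = 10200960 := by
  obtain ⟨n, h6, h7⟩ := sylow_count (p := 23) (by norm_num) (H := H)
    (Subgroup.zpowers_le.2 ha) (card_zpowers_prime (by norm_num) ua_ne ua_pow)
    (fun h => absurd (card_stab_pt (pt 23) ▸ h.trans (Subgroup.card_dvd_of_le hH)) (by decide))
  have h1 := Subgroup.card_dvd_of_le (inf_le_inf_right
    (Subgroup.normalizer (Subgroup.zpowers ua : Set M24)) hH)
  rw [card_norm23] at h1
  have h2 := dvd_card_of_mem (p := 23) (by norm_num)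
    (H := H ⊓ Subgroup.normalizer (Subgroup.zpowers ua : Set M24))
    ⟨ha, Subgroup.le_normalizer (Subgroup.mem_zpowers _)⟩ ua_ne ua_pow
  have h3 := dvd_card_of_mem (p := 11) (by norm_num)
    (H := H ⊓ Subgroup.normalizer (Subgroup.zpowers ua : Set M24)) ⟨hb, ub_norm⟩ ub_ne ub_pow
  have h8 : ∀ c ≤ 253, c ∣ 253 → 23 ∣ c → 11 ∣ c → c = 253 := by decide +kernel
  rw [h8 _ (Nat.le_of_dvd (by omega) h1) h1 h2 h3] at h6
  have h4 := card_orbF H (pt 0)
  rw [cover_a ha hH, card_ofMask, show pc 0x7fffff = 23 by decide +kernel] at h4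
  have hJ : H ⊓ stP 0 ≤ stP 0 ⊓ stP 23 := le_inf inf_le_right (inf_le_left.trans hH)
  have h5 := sylow11 hJ ⟨hb, ub_0⟩
  have h9 := Subgroup.card_dvd_of_le hJ
  have e : Nat.card ↥(H ⊓ stP 0) = 11 * n := by omega
  rw [card22, e] at h9
  rw [e] at h5
  have h10 : n ∣ 40320 := Nat.dvd_of_mul_dvd_mul_left (show 0 < 11 by omega) h9
  have h11 : allN 1754 (fun k => force (Nat.add (Nat.mul 23 k) 1) fun n =>
      orB (Bool.not (Nat.beq (Nat.mod 40320 n) 0)) (orB (Nat.beq n 1) (orB (Nat.beq n 40320)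
        (andB (Bool.not (Nat.beq (Nat.mod n 11) 1)) (Bool.not (Nat.beq (Nat.mod n 55) 5)))))) =
      true := by decide +kernel
  have h12 := Nat.le_of_dvd (by omega) h10
  have h13 := allN_spec h11 (n / 23) (by omega)
  rw [force_eq, show Nat.add (Nat.mul 23 (n / 23)) 1 = n by
    show 23 * (n / 23) + 1 = n; omega] at h13
  simp only [orB_eq, andB_eq, Bool.or_eq_true, Bool.and_eq_true, Bool.not_eq_true',
    ← Bool.not_eq_true, Nat.beq_eq] at h13
  change ¬ 40320 % n = 0 ∨ n = 1 ∨ n = 40320 ∨ (¬ n % 11 = 1 ∧ ¬ n % 55 = 5) at h13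
  have h14 := Nat.mod_eq_zero_of_dvd h10
  omega

end Elv

end Cfsg.Agent.Golay
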