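import Cfsg.Agent.Lib.Golay.Small

/-!
Equality tests on the 24 points, conjugation into subgroups, centralisers, quartets.
-/

set_option autoImplicit false

namespace Cfsg.Agent.Golay

open Cfsg Cfsg.Agent.PG Equiv MulAction
open scoped Pointwise

/-- two products agree on the 24 points -/
noncomputable def eq24 (A : List Net) (l l' : List ℕ) : Bool :=
  allN 24 fun p => Nat.beq (pre A l p) (pre A l' p)

theorem allN_of {n : ℕ} {p : ℕ → Bool} (h : ∀ i < n, p i = true) : allN n p = true := by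
  induction n with
  | zero => rfl
  | succ n ih =>
    show andB (p n) (allN n p) = true
    rw [andB_eq, h n (by omega), ih fun i hi => h i (by omega)]; rfl

theorem eq24_iff {N : ℕ} {A : List Net} (hA : okA N A = true) (hm : m24OK A = true) (l l' : List ℕ) :
    eq24 A l l' = true ↔ toG (pp A l) = toG (pp A l') := by
  have h1 := Acts.inv (K_E24 hA hm (pp_mem_K0 A l)).1
  have h2 := Acts.inv (K_E24 hA hm (pp_mem_K0 A l')).1
  constructor
  · intro h
    rw [← inv_inj]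
    ext1 p
    have := allN_spec h _ (idx_lt p)
    rw [Nat.beq_eq, pre_eq hA, pre_eq hA] at this
    rw [Lk.apply h1, Lk.apply h2, this]
  · intro h
    refine allN_of fun i hi => ?_
    have a := Lk.idx h1 (pt i)
    have b := Lk.idx h2 (pt i)
    rw [idx_pt i hi] at a b
    rw [Nat.beq_eq, pre_eq hA, pre_eq hA, ← a, ← b, h]

theorem toG_pp_append {N : ℕ} {A : List Net} (hA : okA N A = true) (hm : m24OK A = true)
    (l l' : List ℕ) : toG (pp A (l ++ l')) = toG (pp A l) * toG (pp A l') := by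
  rw [pp_append, toG_mul hA hm (pp_mem_K0 A l) (pp_mem_K0 A l')]

theorem toG_inv {N : ℕ} {A : List Net} (hA : okA N A = true) (hm : m24OK A = true) {σ : Perm ℕ}
    (hσ : σ ∈ K A 0) : toG σ⁻¹ = (toG σ)⁻¹ := (Lk.eq_toG (Acts.inv (K_E24 hA hm hσ).1)).symm

theorem toG_pp_apply {N : ℕ} {A : List Net} (hA : okA N A = true) (hm : m24OK A = true)
    {l : List ℕ} {a b : ℕ} (ha : a < 24) (h : mapsB A l a b = true) : toG (pp A l) (pt a) = pt b := by
  rw [(K_E24 hA hm (pp_mem_K0 A l)).1.apply, idx_pt a ha, (mapsB_iff hA).1 h]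

theorem exists_conj_mem {G : Type*} [Group G] [Finite G] {p : ℕ} (hp : p.Prime) {C : Subgroup G}
    (h : ¬ p ∣ C.index) {x : G} (hx : x ^ p = 1) : ∃ g : G, g⁻¹ * x * g ∈ C := by
  have := Fact.mk hp
  have := Fintype.ofFinite (G ⧸ C)
  obtain ⟨q, hq⟩ := Perm.exists_fixed_point_of_prime (p := p) (n := 1) (α := G ⧸ C)
    (by rwa [← Nat.card_eq_fintype_card, ← Subgroup.index_eq_card])
    (σ := toPermHom G (G ⧸ C) x) (by rw [pow_one, ← map_pow, hx, map_one])
  obtain ⟨g, rfl⟩ := QuotientGroup.mk_surjective q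
  have h2 : ((x * g : G) : G ⧸ C) = g := hq
  exact ⟨g, by rw [mul_assoc]; exact QuotientGroup.eq.1 h2.symm⟩

/-- centralisers of corresponding elements -/
def centEquiv {G G' : Type*} [Group G] [Group G'] (e : G ≃* G') (x : G) :
    Subgroup.centralizer ({x} : Set G) ≃* Subgroup.centralizer ({e x} : Set G') where
  toFun g := ⟨e g, Subgroup.mem_centralizer_singleton_iff.2 (by
    rw [← map_mul, ← map_mul, Subgroup.mem_centralizer_singleton_iff.1 g.2])⟩
  invFun g := ⟨e.symm g, Subgroup.mem_centralizer_singleton_iff.2 (e.injective (by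
    rw [map_mul, map_mul, e.apply_symm_apply, Subgroup.mem_centralizer_singleton_iff.1 g.2]))⟩
  left_inv g := Subtype.ext (e.symm_apply_apply g)
  right_inv g := Subtype.ext (e.apply_symm_apply g)
  map_mul' a b := Subtype.ext (map_mul e (a : G) (b : G))

/-- all elements of `K A t` are listed -/
theorem enum_K {A : List Net} {t : ℕ} {tr : List ℕ} {cert : List (List (ℕ × ℕ))}
    (h : plainShape A t A.length tr cert = true) (hc : ∀ c ∈ plainClaims t tr cert, Holds A c) :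
    ∀ σ ∈ K A t, ∃ w ∈ tr, σ = wp A w := by
  intro σ hσ
  obtain ⟨w, hw, e⟩ := plain_cosets h hc σ hσ
  rw [K_length A le_rfl, Subgroup.mem_bot, inv_mul_eq_one] at e
  exact ⟨w, hw, e.symm⟩

/-! ### Quartets -/

theorem smul_mem_hexadsOn {g : Perm GolayPt} (hg : g ∈ M24) {d h : Finset GolayPt}
    (hh : h ∈ hexadsOn d) : g • h ∈ hexadsOn (g • d) := by
  obtain ⟨h1, o, ho, rfl⟩ := hh
  exact ⟨by rwa [Finset.card_smul_finset], g • o, (smul_mem_octads hg).2 ho, (smul_inter' _ _ _).symm⟩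

theorem smul_mem_quartets {g : Perm GolayPt} (hg : g ∈ M24) {d : Finset GolayPt}
    {Q : Finset (Finset GolayPt)} (hQ : Q ∈ quartets d) : g • Q ∈ quartets (g • d) := by
  refine ⟨by rw [Finset.card_smul_finset, hQ.1], fun t ht => ?_, fun t ht u hu hne => ?_⟩
  · obtain ⟨t, ht', rfl⟩ := Finset.mem_smul_finset.1 ht
    rw [Finset.card_smul_finset, smul_subset_smul']
    exact hQ.2.1 t ht'
  · obtain ⟨t, ht', rfl⟩ := Finset.mem_smul_finset.1 ht
    obtain ⟨u, hu', rfl⟩ := Finset.mem_smul_finset.1 hu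
    rw [← smul_union']
    exact smul_mem_hexadsOn hg (hQ.2.2 t ht' u hu' fun e => hne (by rw [e]))

theorem smul_mem_quartets_iff {g : Perm GolayPt} (hg : g ∈ M24) {d : Finset GolayPt}
    {Q : Finset (Finset GolayPt)} : g • Q ∈ quartets (g • d) ↔ Q ∈ quartets d :=
  ⟨fun h => by simpa using smul_mem_quartets (M24.inv_mem hg) h, smul_mem_quartets hg⟩

theorem famOf_quartet {ts os : List ℕ} {d : ℕ} (h : ts.length = 4 ∧ ts.Nodup ∧
    (∀ t ∈ ts, t < 2 ^ 24 ∧ pc t = 3 ∧ t &&& d = t) ∧ (∀ o ∈ os, isCw o = true ∧ pc o = 8) ∧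
    ∀ t ∈ ts, ∀ u ∈ ts, t ≠ u → pc (t ||| u) = 6 ∧ ∃ o ∈ os, o &&& d = t ||| u) :
    famOf ts ∈ quartets (ofMask d) := by
  refine ⟨by rw [card_famOf h.2.1 fun t ht => (h.2.2.1 t ht).1, h.1], fun s hs => ?_,
    fun s hs s' hs' hne => ?_⟩
  · obtain ⟨t, ht, rfl⟩ := mem_famOf.1 hs
    exact ⟨by rw [card_ofMask, (h.2.2.1 t ht).2.1], ofMask_subset (h.2.2.1 t ht).2.2⟩
  · obtain ⟨t, ht, rfl⟩ := mem_famOf.1 hs
    obtain ⟨u, hu, rfl⟩ := mem_famOf.1 hs'
    obtain ⟨a, o, ho, b⟩ := h.2.2.2.2 t ht u hu fun e => hne (by rw [e])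
    rw [← ofMask_or]
    exact ⟨by rw [card_ofMask, a], ofMask o, octad_of_mask (h.2.2.2.1 o ho), by rw [← ofMask_and, b]⟩

theorem hexad_sub {d h : Finset GolayPt} (hh : h ∈ hexadsOn d) : h ⊆ d ∧ ∃ o ∈ octads, h ⊆ o := by
  obtain ⟨_, o, ho, rfl⟩ := hh
  exact ⟨Finset.inter_subset_right, o, ho, Finset.inter_subset_left⟩

end Cfsg.Agent.Golay
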