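import Cfsg.Agent.Lib.Golay.Sub
import Cfsg.Agent.Lib.Golay.T2.Main

/-! Subgroups of odd index in `M24` and `M23`. -/

set_option autoImplicit false
set_option maxRecDepth 100000
set_option exponentiation.threshold 100000

namespace Cfsg.Agent.Golay

open Cfsg Cfsg.Agent.PG Equiv MulAction
open scoped Pointwise symmDiff

/-- stabiliser of a numbered point -/
scoped notation:max "stP " i:max => MulAction.stabilizer Cfsg.M24 (Cfsg.Agent.Golay.pt i)
/-- stabiliser of a set given by a mask -/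
scoped notation:max "stS " m:max => MulAction.stabilizer Cfsg.M24 (Cfsg.Agent.Golay.ofMask m)

section Words

variable {N : ℕ} {A : List Net} (hA : okA N A = true) (hm : m24OK A = true)

theorem fixS {gens : List (List ℕ)} {m : ℕ} (h : invB A gens m = true) :
    ∀ w ∈ gens, el hA hm w ∈ stS m := fun w hw => el_fix hA hm (allL_spec h w hw)

theorem fixP {gens : List (List ℕ)} {i : ℕ} (hi : i < 24) (h : invB A gens (2 ^ i) = true) :
    ∀ w ∈ gens, el hA hm w ∈ stP i := fun w hw => stab_two_pow hi ▸ fixS hA hm h w hw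

theorem el_eq {N' : ℕ} {A' : List Net} (hA' : okA N' A' = true) (hm' : m24OK A' = true)
    {w w' : List ℕ} (h : allN 24 (fun p => Nat.beq (pre A w p) (pre A' w' p)) = true) :
    el hA hm w = el hA' hm' w' := by
  rw [← inv_inj]
  apply Subtype.ext
  ext1 p
  have h1 := allN_spec h _ (idx_lt p)
  rw [Nat.beq_eq, pre_eq hA, pre_eq hA'] at h1
  show (toG (pp A w))⁻¹ p = (toG (pp A' w'))⁻¹ p
  rw [Lk.apply (Acts.inv (K_E24 hA hm (pp_mem_K0 A w)).1),
    Lk.apply (Acts.inv (K_E24 hA' hm' (pp_mem_K0 A' w')).1), h1]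

theorem el_mem_range' {t : ℕ} {w : List ℕ} (h : pge t w = true) :
    el hA hm w ∈ (toM24 hA hm t).range := ⟨⟨pp A w, pp_mem h⟩, rfl⟩

theorem range_mono {t t' : ℕ} (h : t ≤ t') : (toM24 hA hm t').range ≤ (toM24 hA hm t).range := by
  rintro _ ⟨σ, rfl⟩
  exact ⟨⟨σ, K_mono A h σ.2⟩, rfl⟩

theorem card_le_cover {H : Subgroup M24} {gens : List (List ℕ)}
    (hg : ∀ w ∈ gens, el hA hm w ∈ H) {r a m c n : ℕ} (ha : a < 24)
    (h : coverB A gens r [a] m = true) (hc : Nat.card H ≤ n) (hn : n < pc m * (c + 1)) :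
    Nat.card ↥(H ⊓ stP a) ≤ c := by
  have h1 := card_le_of_orbF (cover_orbF hA hm hg ha h)
  rw [card_ofMask] at h1
  by_contra h2
  have := Nat.mul_le_mul_left (pc m) (show c + 1 ≤ Nat.card ↥(H ⊓ stP a) by omega)
  omega

end Words

theorem sp_le_ss {J : Subgroup M24} {i : ℕ} (hi : i < 24) (h : J ≤ stP i) : J ≤ stS (2 ^ i) :=
  stab_two_pow hi ▸ h

theorem ss_le_sp {J : Subgroup M24} {i : ℕ} (hi : i < 24) (h : J ≤ stS (2 ^ i)) : J ≤ stP i :=
  stab_two_pow hi ▸ h

theorem card_dvd_M24 (J : Subgroup M24) : Nat.card J ∣ 244823040 :=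
  card_M24 ▸ Subgroup.card_subgroup_dvd_card J

theorem bit_of_mem {m i : ℕ} {s : Finset GolayPt} (hi : i < 24) (h : ofMask m = s) (hp : pt i ∈ s) :
    m.testBit i = true := (pt_mem_ofMask hi).1 (h ▸ hp)

theorem bit_of_notMem {m i : ℕ} {s : Finset GolayPt} (hi : i < 24) (h : ofMask m = s)
    (hp : pt i ∉ s) : m.testBit i = false :=
  Bool.eq_false_iff.2 fun e => hp (h ▸ (pt_mem_ofMask hi).2 e)

theorem not_le_of_trans {H : Subgroup M24} {a b m : ℕ} (htr : orbF H (pt a) = Finset.univ)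
    (h : H ≤ stS m) (ha : a < 24) (hb : b < 24) (h1 : m.testBit a = false) (h2 : m.testBit b = true) :
    False := by
  have h3 := orbF_subset (le_stab_xor h (le_stab_full H) rfl) (p := pt a) (by
    rw [ofMask_compl, Finset.mem_compl, pt_mem_ofMask ha, h1]; simp)
  rw [htr, ofMask_compl] at h3
  exact Finset.mem_compl.1 (h3 (Finset.mem_univ (pt b))) ((pt_mem_ofMask hb).2 h2)

theorem smul_xor_pt {h : M24} {a b m m' : ℕ} (ha : a < 24) (hb : b < 24)
    (h1 : (h : Perm GolayPt) (pt a) = pt b) (h2 : h • ofMask m = ofMask m') {c : ℕ}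
    (e1 : m ^^^ 2 ^ a = c) (e2 : m' ^^^ 2 ^ b = c) : h ∈ stS c := by
  rw [mem_stab_M24]
  conv_lhs => rw [← e1]
  rw [← e2, ofMask_xor, ofMask_xor, smul_symmDiff', ofMask_two_pow ha, ofMask_two_pow hb,
    smul_singleton', h1, ← h2]
  rfl

theorem eq_of_cj_eq {G Y : Type*} [Group G] [MulAction G Y] {k : G} {H : Subgroup G} {y : Y}
    (h : cj k H = stabilizer G y) : H = stabilizer G (k • y) := by
  ext g
  obtain ⟨g, rfl⟩ := (MulAut.conj k).surjective g
  exact (mem_cj.symm.trans (h ▸ Iff.rfl)).trans (conj_mem_stab k g y).symm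

theorem eq_of_cj_eq₂ {G Y Z : Type*} [Group G] [MulAction G Y] [MulAction G Z] {k : G}
    {H : Subgroup G} {y : Y} {z : Z} (h : cj k H = stabilizer G y ⊓ stabilizer G z) :
    H = stabilizer G (k • y) ⊓ stabilizer G (k • z) := by
  ext g
  obtain ⟨g, rfl⟩ := (MulAut.conj k).surjective g
  exact (mem_cj.symm.trans (h ▸ Iff.rfl)).trans
    (and_congr (conj_mem_stab k g y).symm (conj_mem_stab k g z).symm)

namespace Odd

theorem mT : m24OK T2.A = true := by decide +kernel

noncomputable def Bn0 : Net :=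
 (.cons 16 0x6a00
 (.cons 8 0x600050
 (.cons 4 0x2050104
 (.cons 2 0x2300110
 (.cons 1 0x14040
 (.cons 2 0x21000
 (.cons 4 0x40104
 (.cons 8 0x40
 (.cons 16 0x6a40
 .nil)))))))))

noncomputable def Bn1 : Net :=
 (.cons 16 0x2000
 (.cons 4 0x10c00
 (.cons 2 0x211220
 (.cons 1 0x110510
 (.cons 2 0x20020
 (.cons 4 0xc0408
 (.cons 8 0x200010
 (.cons 16 0x2040
 .nil))))))))

noncomputable def Bn2 : Net :=
 (.cons 16 0x9039
 (.cons 8 0x19
 (.cons 4 0x10901
 (.cons 2 0x20200030
 (.cons 1 0x10414140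
 (.cons 2 0x20002000
 (.cons 4 0x50c01
 (.cons 8 0x800011
 (.cons 16 0x9049
 .nil)))))))))

noncomputable def Bn3 : Net :=
 (.cons 16 0xdc02
 (.cons 8 0x100080
 (.cons 4 0xc060200
 (.cons 2 0x20002000
 (.cons 1 0x14410110
 (.cons 2 0x20000010
 (.cons 4 0x40a0000
 (.cons 8 0x40082
 (.cons 16 0xdc22
 .nil)))))))))

noncomputable def Bn4 : Net :=
 (.cons 16 0xcb00
 (.cons 8 0xb00c0
 (.cons 4 0x4010600
 (.cons 2 0x3211200
 (.cons 1 0x5454404
 (.cons 2 0x200200
 (.cons 4 0xc010600
 (.cons 8 0xa00d0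
 (.cons 16 0xcb40
 .nil)))))))))

noncomputable def Bn5 : Net :=
 (.cons 16 0xb952
 (.cons 8 0x9000a4
 (.cons 4 0x1010201
 (.cons 2 0x2110000
 (.cons 1 0x11414001
 (.cons 2 0x22222001
 (.cons 4 0x1000001
 (.cons 8 0x8000a4
 (.cons 16 0xb980
 .nil)))))))))

noncomputable def Bn6 : Net :=
 (.cons 16 0x84f6
 (.cons 8 0x86000a
 (.cons 4 0x90502
 (.cons 2 0x2300210
 (.cons 1 0x4540404
 (.cons 2 0x2000200
 (.cons 4 0x408
 (.cons 8 0x60068
 (.cons 16 0x8496
 .nil)))))))))

noncomputable def Bn7 : Net :=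
 (.cons 16 0x1af8
 (.cons 8 0x23009c
 (.cons 4 0x9000002
 (.cons 2 0x20122020
 (.cons 1 0x1045440
 (.cons 2 0x20
 (.cons 4 0x8080104
 (.cons 8 0x290038
 (.cons 16 0x1a02
 .nil)))))))))

noncomputable def Bn8 : Net :=
 (.cons 16 0xc040
 (.cons 8 0x8200c0
 (.cons 4 0x2040400
 (.cons 2 0x121200
 (.cons 1 0x40114404
 (.cons 2 0x20020202
 (.cons 4 0x20c0400
 (.cons 8 0x8200c0
 (.cons 16 0xc000
 .nil)))))))))

noncomputable def Bn9 : Net :=
 (.cons 16 0x858
 (.cons 8 0xa10091
 (.cons 4 0x4020c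
 (.cons 2 0x22023001
 (.cons 1 0x1041014
 (.cons 2 0x2000022
 (.cons 4 0x8000004
 (.cons 8 0xa10041
 (.cons 16 0x812
 .nil)))))))))

noncomputable def Bn10 : Net :=
 (.cons 16 0x22a4
 (.cons 8 0x620020
 (.cons 4 0x30704
 (.cons 2 0x20021102
 (.cons 1 0x40100140
 (.cons 2 0x20000200
 (.cons 4 0x20200
 (.cons 8 0x4000a0
 (.cons 16 0x22a4
 .nil)))))))))

noncomputable def Bn11 : Net :=
 (.cons 16 0x20d1
 (.cons 8 0x4200a1
 (.cons 4 0x20d0500
 (.cons 2 0x20320211
 (.cons 1 0x40114400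
 (.cons 2 0x20020000
 (.cons 4 0x40200
 (.cons 8 0x420064
 (.cons 16 0x2074
 .nil)))))))))

noncomputable def Bn12 : Net :=
 (.cons 16 0xc431
 (.cons 8 0x40036
 (.cons 4 0x80808
 (.cons 2 0x212020
 (.cons 1 0x40141141
 (.cons 2 0x202100
 (.cons 4 0x4040a03
 (.cons 8 0xc40005
 (.cons 16 0xc428
 .nil)))))))))

noncomputable def Bn13 : Net :=
 (.cons 16 0xc130
 (.cons 8 0x440090
 (.cons 4 0xc060a00
 (.cons 2 0x2230021
 (.cons 1 0x1051440
 (.cons 2 0x2002020
 (.cons 4 0x8040800
 (.cons 8 0x450090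
 (.cons 16 0xc170
 .nil)))))))))

noncomputable def Bn14 : Net :=
 (.cons 16 0x6a43
 (.cons 8 0x800b5
 (.cons 4 0x20a0a05
 (.cons 2 0x22100003
 (.cons 1 0x40100540
 (.cons 2 0x20200000
 (.cons 4 0xa0a08
 (.cons 8 0x2000a0
 (.cons 16 0x6a71
 .nil)))))))))

noncomputable def Bn15 : Net :=
 (.cons 16 0x3a67
 (.cons 8 0xb000c1
 (.cons 4 0x8020008
 (.cons 2 0x20100010
 (.cons 1 0x10114014
 (.cons 2 0x2
 (.cons 4 0x2000008
 (.cons 8 0x880084
 (.cons 16 0x3a24
 .nil)))))))))

noncomputable def Bn16 : Net :=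
 (.cons 16 0xa197
 (.cons 8 0x20044
 (.cons 4 0xa050000
 (.cons 2 0x2220001
 (.cons 1 0x1410054
 (.cons 2 0x2020002
 (.cons 4 0x80c0008
 (.cons 8 0xa3000a
 (.cons 16 0xa119
 .nil)))))))))

noncomputable def B : List Net := [Bn0, Bn1, Bn2, Bn3, Bn4, Bn5, Bn6, Bn7, Bn8, Bn9, Bn10, Bn11, Bn12, Bn13, Bn14, Bn15, Bn16]

theorem hB : okA (2 ^ 5) B = true := by decide +kernel

theorem mB : m24OK B = true := by decide +kernel

/-- a Sylow 2-subgroup of `M24` -/
noncomputable def T0 : Subgroup M24 := (toM24 T2.hA mT 0).range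
/-- a Sylow 2-subgroup of `M23` -/
noncomputable def T1 : Subgroup M24 := (toM24 T2.hA mT 1).range

theorem T0_p : IsPGroup 2 T0 := IsPGroup.of_card (n := 10) ((card_range _ _
  (T2.fixTriv0 (by show _ < 24; omega) (by show _ < 24; omega) (by show _ < 24; omega)
    (by show _ < 24; omega))).trans T2.card0)

theorem T1_le_T0 : T1 ≤ T0 := range_mono _ _ (by omega)

theorem T1_p : IsPGroup 2 T1 := T0_p.to_le T1_le_T0

theorem T1_le : T1 ≤ stP 0 := range_le _ _ (fixP _ _ (by omega) (by decide +kernel))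

theorem two_cases {H : Subgroup M24} (hT : T0 ≤ H) :
    H ≤ stS 0x149f ∨ orbF H (pt 0) = Finset.univ := by
  have hs := le_stab_orbF H (pt 0)
  obtain ⟨m, hm, e⟩ := inv_mem T2.hA mT (fun w hw => hT (el_mem_range _ _ w hw)) (r := 4)
    (cs := [(0, 0x149f), (5, 0xffeb60)]) (by decide +kernel) hs (P := fun m => m.testBit 0 = true)
    (fun m hm => bit_of_mem (by omega) hm (self_mem_orbF _ _)) (l := [0x149f, 0xffffff])
    (by decide +kernel)
  simp only [List.mem_cons, List.not_mem_nil, or_false] at hm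
  rcases hm with rfl | rfl
  · exact Or.inl (e ▸ hs)
  · exact Or.inr (e.trans ofMask_full)

theorem m23_cases {J : Subgroup M24} (hT : T1 ≤ J) (hx : J ≤ stP 0) (h11 : ¬ 11 ∣ Nat.card J)
    (h23 : ¬ 23 ∣ Nat.card J) :
    J ≤ stS 0x149f ∨ J ≤ stS 15 ∨ (21 ∣ Nat.card J ∧ J ≤ stS 12) := by
  have hd := card_orbF_dvd J (pt 5)
  have hM := card_dvd_M24 J
  have h0 := sp_le_ss (by omega) hx
  have hs := le_stab_orbF J (pt 5)
  obtain ⟨m, hm, e⟩ := inv_mem T2.hA mT (fun w hw => hT (el_mem_range _ _ w hw)) (r := 3)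
    (cs := [(0, 0x1), (1, 0x2), (2, 0xc), (4, 0x1490), (5, 0xffeb60)]) (by decide +kernel) hs
    (P := fun m => m.testBit 5 = true ∧ m.testBit 0 = false)
    (fun m hm => ⟨bit_of_mem (by omega) hm (self_mem_orbF _ _),
      bit_of_notMem (by omega) hm (notMem_orbF hx (by decide))⟩)
    (l := [0xffeb60, 0xfffff0, 0xffeb6c, 0xfffffc, 0xffeb62, 0xfffff2, 0xffeb6e, 0xfffffe]) (by decide +kernel)
  rw [e] at hs hd
  rw [card_ofMask] at hd
  simp only [List.mem_cons, List.not_mem_nil, or_false] at hm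
  rcases hm with rfl | rfl | rfl | rfl | rfl | rfl | rfl | rfl
  · exact Or.inl (le_stab_xor hs (le_stab_full J) (by decide))
  · exact Or.inr (Or.inl (le_stab_xor hs (le_stab_full J) (by decide)))
  · exact Or.inl (le_stab_cw' (le_stab_xor hs (le_stab_full J) rfl) (by decide +kernel))
  · exact absurd ((show 11 ∣ pc _ by decide +kernel).trans hd) h11
  · exact absurd (hd.trans hM) (by decide +kernel)
  · exact Or.inr (Or.inr ⟨(show 21 ∣ pc _ by decide +kernel).trans hd,
      le_stab_xor (le_stab_xor hs (le_stab_full J) rfl) h0 (by decide)⟩)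
  · exact absurd (hd.trans hM) (by decide +kernel)
  · exact absurd ((show 23 ∣ pc _ by decide +kernel).trans hd) h23

theorem killO {H : Subgroup M24} (htr : orbF H (pt 0) = Finset.univ)
    (hJ : H ⊓ stP 0 ≤ stS 0x149f) (hg : ∀ w ∈ [[gw 0], [gw 1]], el hB mB w ∈ H) : False := by
  obtain ⟨h, hh, e⟩ := mem_orbF.1 (htr ▸ Finset.mem_univ (pt 5))
  have h1 := conj_stab hJ hh
  rw [show h • pt 0 = pt 5 from e] at h1
  have h2 : h • ofMask 0x149f ∈ octads := (smul_mem_octads h.2).2 octad0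
  obtain ⟨m, hm, -⟩ := inv_mem hB mB (H := H ⊓ stP 5)
    (fun w hw => ⟨hg w hw, fixP _ _ (by omega) (by decide +kernel) w hw⟩) (r := 6)
    (cs := [(0, 0x1), (1, 0x2), (2, 0x149c), (5, 0x20), (6, 0xffeb40)]) (by decide +kernel) h1
    (P := fun m => m.testBit 5 = true ∧ pc m = 8 ∧ (m < 2 ^ 24 → isCw m = true))
    (fun m hm => ⟨bit_of_mem (by omega) hm (e ▸ apply_mem_smul.2 (by decide)),
      by rw [← card_ofMask, hm, h2.2], fun hl => isCw_of_cw hl (hm ▸ h2.1)⟩) (l := [])
    (by decide +kernel)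
  cases hm

theorem killb {H : Subgroup M24} (htr : orbF H (pt 0) = Finset.univ) (hJ : H ⊓ stP 0 ≤ stS 12)
    (hg : ∀ w ∈ [[gw 2], [gw 3], [gw 4]], el hB mB w ∈ H) (hg' : ∀ w ∈ [[gw 2], [gw 3], [gw 5]], el hB mB w ∈ H) :
    False := by
  obtain ⟨h, hh, e⟩ := mem_orbF.1 (htr ▸ Finset.mem_univ (pt 1))
  have h1 := conj_stab hJ hh
  rw [show h • pt 0 = pt 1 from e] at h1
  obtain ⟨m, hm, e2⟩ := inv_mem hB mB (H := H ⊓ stP 1)
    (fun w hw => ⟨hg w hw, fixP _ _ (by omega) (by decide +kernel) w hw⟩) (r := 3)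
    (cs := [(0, 0x1), (1, 0x2), (2, 0xc), (4, 0xfffff0)]) (by decide +kernel) h1
    (P := fun m => m.testBit 1 = false ∧ pc m = 2)
    (fun m hm => ⟨bit_of_notMem (by omega) hm (e ▸ fun h => absurd (apply_mem_smul.1 h) (by decide)),
      by rw [← card_ofMask, hm, Finset.card_smul_finset]; decide⟩) (l := [12])
    (by decide +kernel)
  rw [List.mem_singleton.1 hm] at e2
  have h3 : ofMask 0xfffff2 ⊆ orbF (H ⊓ stS 12) (pt 0) :=
    (cover_orbF hB mB (H := H ⊓ stS 12) (fun w hw => ⟨hg' w hw, fixS _ _ (by decide +kernel) w hw⟩) (by omega)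
      (r := 5) (by decide +kernel)).trans (orbF_trans (mem_orbF.2 ⟨h, ⟨hh, e2⟩, e⟩))
  have h4 := Finset.card_le_card h3
  rw [card_ofMask, show pc 0xfffff2 = 21 by decide +kernel] at h4
  have h5 := eq_of_long_orbit (L := H ⊓ stS 12) inf_le_left (le_inf inf_le_left hJ)
    (by rw [htr, Finset.card_univ, card_pt]; omega)
  exact not_le_of_trans htr (h5 ▸ inf_le_right) (b := 2) (by omega) (by omega) rfl rfl

theorem card_t : (ofMask 15).card = 4 := by decide

theorem sext {H : Subgroup M24} (htr : orbF H (pt 0) = Finset.univ) (hJ : H ⊓ stP 0 ≤ stS 15)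
    (hg : ∀ w ∈ [[gw 6], [gw 7]], el hB mB w ∈ H) (hg' : ∀ w ∈ [[gw 8], [gw 9], [gw 10]], el hB mB w ∈ H) :
    H ≤ stabilizer M24 (sextetOf (ofMask 15)) := by
  obtain ⟨h, hh, e⟩ := mem_orbF.1 (htr ▸ Finset.mem_univ (pt 4))
  have h1 := conj_stab hJ hh
  rw [show h • pt 0 = pt 4 from e] at h1
  obtain ⟨m, hm, e2⟩ := inv_mem hB mB (H := H ⊓ stP 4)
    (fun w hw => ⟨hg' w hw, fixP _ _ (by omega) (by decide +kernel) w hw⟩) (r := 4)
    (cs := [(0, 0x1), (1, 0xe), (4, 0x10), (5, 0xffeb60), (7, 0x1480)]) (by decide +kernel) h1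
    (P := fun m => m.testBit 4 = true ∧ pc m = 4)
    (fun m hm => ⟨bit_of_mem (by omega) hm (e ▸ apply_mem_smul.2 (by decide)),
      by rw [← card_ofMask, hm, Finset.card_smul_finset]; decide⟩) (l := [30, 0x1490])
    (by decide +kernel)
  have key : ∀ L : Subgroup M24, H ⊓ stP 0 ≤ L → h ∈ L → H ≤ L := by
    intro L a1 a2
    have h3 : ofMask 0xfffff0 ⊆ orbF (H ⊓ L) (pt 0) :=
      (cover_orbF hB mB (H := H ⊓ L) (fun w hw => ⟨hg w hw,
        a1 ⟨hg w hw, fixP _ _ (by omega) (by decide +kernel) w hw⟩⟩) (by omega)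
        (r := 5) (by decide +kernel)).trans (orbF_trans (mem_orbF.2 ⟨h, ⟨hh, a2⟩, e⟩))
    have h4 := Finset.card_le_card h3
    rw [card_ofMask, show pc 0xfffff0 = 20 by decide +kernel] at h4
    have h5 := eq_of_long_orbit (L := H ⊓ L) inf_le_left (le_inf inf_le_left a1)
      (by rw [htr, Finset.card_univ, card_pt]; omega)
    exact h5 ▸ inf_le_right
  have hS := sextetOf_mem card_t
  have h6 : ∀ g : M24, g • ofMask 15 ∈ sextetOf (ofMask 15) →
      g ∈ stabilizer M24 (sextetOf (ofMask 15)) := fun g hg =>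
    sextet_eq (smul_mem_sextets g.2 hS) hS (mem_smul_fam.2 (self_mem_sextetOf _)) hg
  simp only [List.mem_cons, List.not_mem_nil, or_false] at hm
  rcases hm with rfl | rfl
  · exact (not_le_of_trans htr (key (stS 14) (le_stab_xor hJ (sp_le_ss (by omega) inf_le_right)
      (by decide)) (smul_xor_pt (by omega) (by omega) e e2 (by decide) (by decide))) (b := 1)
      (by omega) (by omega) rfl rfl).elim
  · refine key _ (fun g hg => h6 g ?_) (h6 h ?_)
    · rw [mem_stabilizer_iff.1 (hJ hg)]; exact self_mem_sextetOf _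
    · rw [e2]; exact mem_sextetOf.2 (Or.inr ⟨_, octad0, by decide, by decide⟩)

theorem card_O0 : Nat.card ↥(stS 0x149f ⊓ stP 0) ≤ 40320 :=
  card_le_cover T2.hA mT (fixS _ _ (gens := kgens T2.A 0) (by decide +kernel)) (by omega) (r := 4)
    (m := 0x149f) (by decide +kernel) (card_stab_octad octad0).le (by decide +kernel)

theorem card_O01 : Nat.card ↥(stS 0x149f ⊓ stP 0 ⊓ stP 1) ≤ 5760 :=
  card_le_cover hB mB (H := stS 0x149f ⊓ stP 0) (gens := [[gw 14]]) (fun w hw => ⟨fixS _ _ (by decide +kernel) w hw,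
    fixP _ _ (by omega) (by decide +kernel) w hw⟩) (by omega) (r := 7)
    (m := 0x149e) (by decide +kernel) card_O0 (by decide +kernel)

theorem card_t0 : Nat.card ↥(stS 15 ⊓ stP 0) ≤ 5760 :=
  card_le_cover hB mB (fixS _ _ (gens := [[gw 11], [gw 12]]) (by decide +kernel)) (by omega) (r := 3)
    (m := 15) (by decide +kernel) (n := 23040) (by
      have := card_stab_small (s := ofMask 15) (by decide)
      rw [card_t, show Nat.choose 24 4 = 10626 by decide +kernel] at this
      omega) (by decide +kernel)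

theorem card_b : Nat.card (stS 12) = 887040 := by
  have := card_stab_small (s := ofMask 12) (by decide)
  rw [show (ofMask 12).card = 2 by decide, show Nat.choose 24 2 = 276 by decide +kernel] at this
  omega

theorem card_b0 : Nat.card ↥(stS 12 ⊓ stP 0) ≤ 40320 :=
  card_le_cover hB mB (fixS _ _ (gens := [[gw 15], [gw 16]]) (by decide +kernel)) (by omega) (r := 5)
    (m := 0xfffff3) (by decide +kernel) card_b.le (by decide +kernel)

theorem A6_mem : ∀ w ∈ [[gw 0], [gw 1]], el hB mB w ∈ stS 0x149f ⊓ stP 0 ⊓ stP 1 := fun w hw =>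
  ⟨⟨fixS _ _ (by decide +kernel) w hw, fixP _ _ (by omega) (by decide +kernel) w hw⟩,
    fixP _ _ (by omega) (by decide +kernel) w hw⟩

theorem b_mem : ∀ w ∈ [[gw 2], [gw 3], [gw 4], [gw 5]], el hB mB w ∈ stS 12 ⊓ stP 0 := fun w hw =>
  ⟨fixS _ _ (by decide +kernel) w hw, fixP _ _ (by omega) (by decide +kernel) w hw⟩

theorem card_J {H : Subgroup M24} (htr : orbF H (pt 0) = Finset.univ) :
    24 * Nat.card ↥(H ⊓ stP 0) = Nat.card H := by
  have := card_orbF H (pt 0)
  rwa [htr, Finset.card_univ, card_pt] at this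

theorem index759 {H : Subgroup M24} (hT : T0 ≤ H) (hc : Nat.card H = 322560) :
    H = stS 0x149f := by
  rcases two_cases hT with h | htr
  · exact Subgroup.eq_of_le_of_card_ge h (by rw [card_stab_octad octad0, hc])
  exfalso
  have hJ : Nat.card ↥(H ⊓ stP 0) = 13440 := by have := card_J htr; omega
  have hT1 : T1 ≤ H ⊓ stP 0 := le_inf (T1_le_T0.trans hT) T1_le
  rcases m23_cases hT1 inf_le_right (by rw [hJ]; decide) (by rw [hJ]; decide) with h | h | ⟨-, h⟩
  · refine killO htr h fun w hw => (mem_of_card_lt (p := 5) (by norm_num) (le_inf h inf_le_right)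
      (by have := card_O0; omega) (A6_mem w hw).1 (el_pow _ _ (allL_spec (l := [[gw 0], [gw 1]])
        (p := fun w => eq24 B (powP w 5) []) (by decide +kernel) w hw))).1
  · have := Subgroup.card_le_of_le (le_inf h inf_le_right)
    have := card_t0
    omega
  · have h5 : ∀ w ∈ [[gw 2], [gw 3]], el hB mB w ∈ H := fun w hw =>
      (mem_of_card_lt (p := 5) (by norm_num) (le_inf h inf_le_right)
        (by have := card_b0; omega) (b_mem w (List.mem_append_left [[gw 4], [gw 5]] hw))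
        (el_pow _ _ (allL_spec (l := [[gw 2], [gw 3]])
        (p := fun w => eq24 B (powP w 5) []) (by decide +kernel) w hw))).1
    refine killb htr h (fun w hw => ?_) fun w hw => ?_
    · rcases List.mem_append.1 (show w ∈ [[gw 2], [gw 3]] ++ [[gw 4]] from hw) with hw | hw
      · exact h5 w hw
      · rw [List.mem_singleton.1 hw, el_eq hB mB T2.hA mT (w' := [gw 1]) (by decide +kernel)]
        exact (hT1 (el_mem_range' _ _ (by decide +kernel))).1
    · rcases List.mem_append.1 (show w ∈ [[gw 2], [gw 3]] ++ [[gw 5]] from hw) with hw | hw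
      · exact h5 w hw
      · rw [List.mem_singleton.1 hw]
        exact (mem_of_card_lt (p := 7) (by norm_num) (le_inf h inf_le_right)
          (by have := card_b0; omega) (b_mem _ (by simp)) (el_pow _ _ (by decide +kernel))).1

theorem m23_index253 {J : Subgroup M24} (hT : T1 ≤ J) (hx : J ≤ stP 0) (hc : Nat.card J = 40320) :
    J = stS 0x149f ⊓ stP 0 ∨ J = stS 12 ⊓ stP 0 := by
  rcases m23_cases hT hx (by rw [hc]; decide) (by rw [hc]; decide) with h | h | ⟨-, h⟩
  · exact Or.inl (Subgroup.eq_of_le_of_card_ge (le_inf h hx) (hc ▸ card_O0))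
  · have := Subgroup.card_le_of_le (le_inf h hx)
    have := card_t0
    omega
  · exact Or.inr (Subgroup.eq_of_le_of_card_ge (le_inf h hx) (hc ▸ card_b0))

theorem index253 {H : Subgroup M24} (hT : T0 ≤ H) (hc : Nat.card H = 967680) : False := by
  rcases two_cases hT with h | htr
  · have := Subgroup.card_le_of_le h
    rw [card_stab_octad octad0] at this
    omega
  have hJ : Nat.card ↥(H ⊓ stP 0) = 40320 := by have := card_J htr; omega
  rcases m23_index253 (le_inf (T1_le_T0.trans hT) T1_le) inf_le_right hJ with h | h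
  · exact killO htr (h ▸ inf_le_left) fun w hw => (h.ge (A6_mem w hw).1).1
  · exact killb htr (h ▸ inf_le_left) (fun w hw => (h.ge (b_mem w
      (List.mem_append_left [[gw 5]] hw))).1) fun w hw => (h.ge (b_mem w (by
        simp only [List.mem_cons, List.not_mem_nil, or_false] at hw ⊢; tauto))).1

theorem index1771 {H : Subgroup M24} (hT : T0 ≤ H) (hc : Nat.card H = 138240) :
    H = stabilizer M24 (sextetOf (ofMask 15)) := by
  rcases two_cases hT with h | htr
  · have := Subgroup.card_dvd_of_le h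
    rw [card_stab_octad octad0, hc] at this
    exact absurd this (by decide)
  have hJ : Nat.card ↥(H ⊓ stP 0) = 5760 := by have := card_J htr; omega
  have hT1 : T1 ≤ H ⊓ stP 0 := le_inf (T1_le_T0.trans hT) T1_le
  have key : H ⊓ stP 0 ≤ stS 15 → H = stabilizer M24 (sextetOf (ofMask 15)) := fun h => by
    have e := Subgroup.eq_of_le_of_card_ge (le_inf h inf_le_right) (hJ ▸ card_t0)
    refine Subgroup.eq_of_le_of_card_ge (sext htr h (fun w hw => ?_) fun w hw => ?_)
      (by rw [card_stab_sextet (sextetOf_mem card_t), hc])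
    · exact (e.ge ⟨fixS _ _ (by decide +kernel) w hw,
        fixP _ _ (by omega) (by decide +kernel) w hw⟩).1
    · exact (e.ge ⟨fixS _ _ (by decide +kernel) w hw,
        fixP _ _ (by omega) (by decide +kernel) w hw⟩).1
  rcases m23_cases hT1 inf_le_right (by rw [hJ]; decide) (by rw [hJ]; decide) with h | h | ⟨h, -⟩
  · have hd := card_orbF_dvd (H ⊓ stP 0) (pt 4)
    have hs := le_stab_orbF (H ⊓ stP 0) (pt 4)
    obtain ⟨m, hm, e⟩ := inv_mem T2.hA mT (fun w hw => hT1 (el_mem_range _ _ w hw)) (r := 3)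
      (cs := [(0, 0x1), (1, 0x2), (2, 0xc), (4, 0x1490), (5, 0xffeb60)]) (by decide +kernel) hs
      (P := fun m => m.testBit 4 = true ∧ m.testBit 0 = false ∧ m.testBit 5 = false)
      (fun m hm => ⟨bit_of_mem (by omega) hm (self_mem_orbF _ _),
        bit_of_notMem (by omega) hm (notMem_orbF inf_le_right (by decide)),
        bit_of_notMem (by omega) hm fun h5 => absurd (orbF_subset h (by decide) h5) (by decide)⟩)
      (l := [0x1490, 0x149c, 0x1492, 0x149e]) (by decide +kernel)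
    rw [e] at hs hd
    rw [card_ofMask, hJ] at hd
    simp only [List.mem_cons, List.not_mem_nil, or_false] at hm
    rcases hm with rfl | rfl | rfl | rfl
    · exact key (le_stab_xor hs h (by decide))
    · have h1 : H ⊓ stP 0 ≤ stP 1 := ss_le_sp (by omega) (le_stab_xor (le_stab_xor hs h rfl)
        (sp_le_ss (by omega) inf_le_right) (by decide))
      have e := Subgroup.eq_of_le_of_card_ge (le_inf (le_inf h inf_le_right) h1) (hJ ▸ card_O01)
      exact (killO htr h fun w hw => (e.ge (A6_mem w hw)).1).elim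
    · have h1 := card_stab_small (s := ofMask 0x1492) (by decide)
      rw [show (ofMask 0x1492).card = 5 by decide,
        show Nat.choose 24 5 = 42504 by decide +kernel] at h1
      have e := Subgroup.eq_of_le_of_card_ge hs (by omega)
      have h2 := (e.ge (el_fix hB mB (w := [gw 13]) (by decide +kernel))).2
      have h3 := toG_pp_apply hB mB (l := [gw 13]) (a := 0) (b := 2) (by omega)
        (by decide +kernel)
      exact absurd (h3.symm.trans h2) (by decide)
    · exact absurd hd (by decide +kernel)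
  · exact key h
  · rw [hJ] at h
    exact absurd h (by decide)

end Odd

end Cfsg.Agent.Golay
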