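import Cfsg.Agent.Lib.Golay.Enum

/-!
The standard quartet.
-/

set_option autoImplicit false
set_option maxRecDepth 100000
set_option exponentiation.threshold 100000

namespace Cfsg.Agent.Golay

open Cfsg Cfsg.Agent.PG Cfsg.Agent.Golay.SB Equiv
open scoped Pointwise

theorem cq1 : andB (fixB A [[0x2020204000008020602020404], [0x2040208020600060600]] [3083])
    (coverB A [[0x2020204000008020602020404], [0x2040208020600060600]] 10 [300, 302, 310, 531] BTriad) = true := by
  decide +kernel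

theorem cq2 : andB (fixB A [[0x20802060204040204080008040204000404], [0x20602040204000a0004040008020a0202060008]] [3083, 302])
    (coverB A [[0x20802060204040204080008040204000404], [0x20602040204000a0004040008020a0202060008]] 9 [300, 302, 304, 305, 310, 312, 316, 317, 326, 327, 331, 334, 342, 354, 383, 479, 520, 527, 531, 536, 580, 766, 966, 1241] BTriad) = true := by
  decide +kernel

theorem Xt0 : X 302 = ofMask 13 := X_eq (by decide +kernel)
theorem Xu0 : X 383 = ofMask 448 := X_eq (by decide +kernel)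

theorem Q0_mem : famOf [13, 448, 9728, 18448] ∈ quartets (ofMask 0x6fdd) :=
  famOf_quartet (os := [75309, 84464, 262637, 290352, 337856, 346141]) (by decide +kernel)

theorem std_dod_triad {d t : Finset GolayPt} (hd : d ∈ dodecads) (ht : t.card = 3) (h : t ⊆ d) :
    ∃ k ∈ M24, k • X 3083 = d ∧ k • X 302 = t := by
  obtain ⟨k, hk, rfl⟩ := std_dod hd
  obtain ⟨k', a1, a2, a3⟩ := std_step triads_eq (fun g _ s hs => by simpa using hs) cq1 (a := 302)
    (mem_bset_ivl.2 (by omega)) (by decide +kernel) hk (s := t) ht (by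
      rw [show ivN [3083] 302 = [3] by decide +kernel]
      simp [Finset.inter_eq_right.2 h, ht])
  exact ⟨k', a1, a2 _ (by simp), a3⟩

theorem std_quartet {d t u : Finset GolayPt} (hd : d ∈ dodecads) (ht : t.card = 3) (hu : u.card = 3)
    (hh : t ∪ u ∈ hexadsOn d) :
    ∃ k ∈ M24, k • ofMask 0x6fdd = d ∧ k • ofMask 13 = t ∧ k • ofMask 448 = u := by
  obtain ⟨h1, h2⟩ := hexad_sub hh
  have htu : Disjoint t u := by rw [← Finset.card_union_eq_card_add_card, hh.1, ht, hu]
  obtain ⟨k, hk, rfl, rfl⟩ := std_dod_triad hd ht (Finset.union_subset_left h1)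
  obtain ⟨u, rfl⟩ := MulAction.surjective k u
  have inv : ∀ g ∈ M24, ∀ z, (∃ o ∈ octads, g • X 302 ∪ g • z ⊆ o) ↔ ∃ o ∈ octads, X 302 ∪ z ⊆ o :=
    fun g hg z => exists_octad_smul hg (fun o => by rw [← smul_union', smul_subset_smul'])
  have h3 := Finset.union_subset_right h1
  simp only [Finset.card_smul_finset, disjoint_smul', inv k hk, smul_subset_smul'] at hu htu h2 h3
  have oct : ∀ m, (∃ o ∈ octads, X 302 ∪ ofMask m ⊆ o) ↔ inOct (13 ||| m) = true := fun m => by
    rw [Xt0, ← ofMask_or, inOct_iff]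
  have e0 : ivS [3083, 302] (X 383) = [3, 0] := by rw [ivS_X]; decide +kernel
  have e1 : ∃ o ∈ octads, X 302 ∪ X 383 ⊆ o := (oct _).2 (by decide +kernel)
  obtain ⟨g, hg, a1, a2⟩ := orb_inv triads_eq cq2
    (fun z => (ivS [3083, 302] z, ∃ o ∈ octads, X 302 ∪ z ⊆ o)) (fun g hg h z => by
      rw [Prod.mk.injEq, ← inv g hg z, ivS_smul h, h 302 (by simp)]
      exact ⟨rfl, rfl⟩) (s := X 383) (s' := u) (by rw [Xu0]; show _ = 3; decide) hu (by
      rw [e0]
      simp [ivS, Finset.inter_eq_right.2 h3, hu, Finset.disjoint_iff_inter_eq_empty.1 htu, e1, h2])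
    (fun i hi j hj e1 e2 => by
      have h3 : ∀ i ∈ [300, 302, 304, 305, 310, 312, 316, 317, 326, 327, 331, 334, 342, 354, 383, 479, 520, 527, 531, 536, 580, 766, 966, 1241], ∀ j ∈ [300, 302, 304, 305, 310, 312, 316, 317, 326, 327, 331, 334, 342, 354, 383, 479, 520, 527, 531, 536, 580, 766, 966, 1241], ivN [3083, 302] i = [3, 0] →
        ivN [3083, 302] j = [3, 0] →
        (inOct (13 ||| colVal S i) = true ↔ inOct (13 ||| colVal S j) = true) → i = j := by
        decide +kernel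
      simp only [Prod.mk.injEq, eq_iff_iff, e0] at e1 e2
      rw [ivS_X] at e1 e2
      refine h3 i hi j hj e1.1 e2.1 ?_
      rw [← oct, ← oct]
      exact e1.2.trans e2.2.symm)
  refine ⟨k * g, M24.mul_mem hk hg, ?_, ?_, ?_⟩
  · rw [mul_smul, ← X_dod0, a1 _ (by simp)]
  · rw [mul_smul, ← Xt0, a1 _ (by simp)]
  · rw [mul_smul, ← Xu0, a2]

theorem Q0_unique {Q : Finset (Finset GolayPt)} (hQ : Q ∈ quartets (ofMask 0x6fdd))
    (ht : ofMask 13 ∈ Q) (hu : ofMask 448 ∈ Q) : Q = famOf [13, 448, 9728, 18448] := by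
  apply Finset.eq_of_subset_of_card_le _ (by rw [Q0_mem.1, hQ.1])
  intro v hv
  rw [mem_famOf]
  by_cases h1 : ofMask 13 = v
  · exact ⟨_, List.mem_cons_self .., h1⟩
  by_cases h2 : ofMask 448 = v
  · exact ⟨_, List.mem_cons_of_mem _ (List.mem_cons_self ..), h2⟩
  have h3 : v ∈ X '' bset BTriad := by rw [triads_eq]; exact (hQ.2.1 v hv).1
  obtain ⟨i, hi, rfl⟩ := h3
  have key : allN 2024 (fun i => force (colVal S (Nat.add 300 i)) fun m =>
      orB (Bool.not (andB (Nat.beq (Nat.land m 0x6fdd) m) (andB (Nat.beq (pc (Nat.lor 13 m)) 6)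
        (andB (Nat.beq (pc (Nat.lor 448 m)) 6) (andB (inOct (Nat.lor 13 m)) (inOct (Nat.lor 448 m)))))))
      (orB (Nat.beq m 9728) (Nat.beq m 18448))) = true := by decide +kernel
  rw [mem_bset_ivl] at hi
  have h4 := allN_spec key (i - 300) (by omega)
  rw [show Nat.add 300 (i - 300) = i by show 300 + (i - 300) = i; omega] at h4
  have a1 := hQ.2.2 _ ht _ hv h1
  have a2 := hQ.2.2 _ hu _ hv h2
  have a3 := (ofMask_subset_iff (colVal_lt S i)).1 (hQ.2.1 _ hv).2
  have a4 := (hexad_sub a1).2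
  have a5 := (hexad_sub a2).2
  have a6 := a1.1
  have a7 := a2.1
  unfold X XS at a4 a5 a6 a7
  rw [← ofMask_or] at a4 a5 a6 a7
  rw [inOct_iff] at a4 a5
  rw [card_ofMask] at a6 a7
  have e : ∀ a b : ℕ, Nat.lor a b = a ||| b := fun _ _ => rfl
  have e' : ∀ a b : ℕ, Nat.land a b = a &&& b := fun _ _ => rfl
  simp only [force_eq, orB_eq, andB_eq, e, e', a3, a4, a5, a6, a7, Nat.beq_refl, Bool.and_self,
    Bool.not_true, Bool.false_or, Bool.or_eq_true, Nat.beq_eq] at h4
  rcases h4 with h4 | h4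
  · exact ⟨colVal S i, by simp [h4], rfl⟩
  · exact ⟨colVal S i, by simp [h4], rfl⟩

theorem quartet_std {d : Finset GolayPt} (hd : d ∈ dodecads) {Q : Finset (Finset GolayPt)}
    (hQ : Q ∈ quartets d) : ∃ k ∈ M24, k • ofMask 0x6fdd = d ∧ k • famOf [13, 448, 9728, 18448] = Q := by
  obtain ⟨t, ht, u, hu, hne⟩ := Finset.one_lt_card.1 (show 1 < Q.card by rw [hQ.1]; omega)
  obtain ⟨k, hk, rfl, rfl, rfl⟩ := std_quartet hd (hQ.2.1 t ht).1 (hQ.2.1 u hu).1 (hQ.2.2 t ht u hu hne)
  obtain ⟨Q, rfl⟩ := MulAction.surjective k Q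
  rw [smul_mem_quartets_iff hk] at hQ
  rw [mem_smul_fam] at ht hu
  exact ⟨k, hk, rfl, by rw [Q0_unique hQ ht hu]⟩

end Cfsg.Agent.Golay
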