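import Cfsg.Agent.Lib.Golay.Stab
import Cfsg.Agent.Lib.PG.Iso

/-!
Subgroups of `M24` given by small alphabets.
-/

set_option autoImplicit false

namespace Cfsg.Agent.Golay

open Cfsg Cfsg.Agent.PG Equiv MulAction
open scoped Pointwise

theorem fix_mask {N : ℕ} {A : List Net} (hA : okA N A = true) (hm : m24OK A = true) {t m : ℕ}
    (h : invB A (kgens A t) m = true) {σ : Perm ℕ} (hσ : σ ∈ K A t) :
    toG σ • ofMask m = ofMask m :=
  (K_E24 hA hm hσ).1.smul_ofMask fun i _ => (K_le_stabB hA (m24OK_len hm) h hσ i).symm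

theorem fix_point {N : ℕ} {A : List Net} (hA : okA N A = true) (hm : m24OK A = true) {t p : ℕ}
    (hp : p < 24) (h : invB A (kgens A t) (Nat.shiftLeft 1 p) = true) {σ : Perm ℕ}
    (hσ : σ ∈ K A t) : toG σ (pt p) = pt p := by
  rw [(K_E24 hA hm hσ).1.apply, idx_pt p hp, K_fix hA (m24OK_len hm) h σ hσ]

/-- a group `K A t` of the right order inside `H` is `H` -/
theorem exists_iso_Kt {N : ℕ} {A : List Net} (hA : okA N A = true) (hm : m24OK A = true) {t : ℕ}
    {H : Subgroup M24} (hH : ∀ σ (hσ : σ ∈ K A t), (⟨toG σ, (K_E24 hA hm hσ).2⟩ : M24) ∈ H)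
    (hf : FixTriv (K A t) I24) (hc : Nat.card H ≤ Nat.card (K A t)) :
    ∃ e : K A t ≃* H, ∀ σ : K A t, ((e σ : M24) : Perm GolayPt) = toG σ := by
  have h1 : ∀ σ : K A t, toM24 hA hm t σ ∈ H := fun σ => hH σ σ.2
  have hi : Function.Injective ((toM24 hA hm t).codRestrict H h1) :=
    (MonoidHom.injective_codRestrict _ _ _).2 (toM24_injective hA hm hf)
  refine ⟨MulEquiv.ofBijective _ ((Nat.bijective_iff_injective_and_card _).2 ⟨hi, ?_⟩), fun σ => rfl⟩
  exact le_antisymm (Nat.card_le_card_of_injective _ hi) hc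

theorem card_eq_K {N : ℕ} {A : List Net} (hA : okA N A = true) (hm : m24OK A = true) {t : ℕ}
    {H : Subgroup M24} (hH : ∀ σ (hσ : σ ∈ K A t), (⟨toG σ, (K_E24 hA hm hσ).2⟩ : M24) ∈ H)
    (hf : FixTriv (K A t) I24) (hg : ∀ g ∈ H, ∃ σ ∈ K A t, (g : Perm GolayPt) = toG σ) :
    Nat.card H = Nat.card (K A t) := by
  have h1 : ∀ σ : K A t, toM24 hA hm t σ ∈ H := fun σ => hH σ σ.2
  refine (Nat.card_eq_of_bijective ((toM24 hA hm t).codRestrict H h1)
    ⟨(MonoidHom.injective_codRestrict _ _ _).2 (toM24_injective hA hm hf), fun g => ?_⟩).symm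
  obtain ⟨σ, hσ, e⟩ := hg g g.2
  exact ⟨⟨σ, hσ⟩, Subtype.ext (Subtype.ext e.symm)⟩

theorem mem_famOf_block {S ts : List ℕ} {lo n : ℕ}
    (h : (List.range n).map (fun k => colVal S (lo + k)) = ts) {s : Finset GolayPt} :
    s ∈ famOf ts ↔ ∃ i ∈ bset (ivl lo (lo + n)), XS S i = s := by
  rw [mem_famOf, ← h]
  simp only [List.mem_map, List.mem_range, mem_bset_ivl]
  constructor
  · rintro ⟨_, ⟨k, hk, rfl⟩, rfl⟩; exact ⟨lo + k, by omega, rfl⟩
  · rintro ⟨i, hi, rfl⟩
    exact ⟨_, ⟨i - lo, by omega, rfl⟩, by rw [show lo + (i - lo) = i by omega]; rfl⟩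

theorem smul_famOf {N : ℕ} {A : List Net} (hA : okA N A = true) (hm : m24OK A = true)
    {S ts : List ℕ} (hS : subOK A S = true) {lo n t : ℕ}
    (h : (List.range n).map (fun k => colVal S (lo + k)) = ts)
    (hB : invB A (kgens A t) (ivl lo (lo + n)) = true) {σ : Perm ℕ} (hσ : σ ∈ K A t) :
    toG σ • famOf ts = famOf ts := by
  apply Finset.eq_of_subset_of_card_le _ (by rw [Finset.card_smul_finset])
  intro s hs
  obtain ⟨u, hu, rfl⟩ := Finset.mem_smul_finset.1 hs
  obtain ⟨i, hi, rfl⟩ := (mem_famOf_block h).1 hu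
  refine (mem_famOf_block h).2 ⟨σ i, ?_, (smul_XS hA hm hS (K_mono A (Nat.zero_le _) hσ) i).symm⟩
  show (ivl lo (lo + n)).testBit (σ i) = true
  rw [K_le_stabB hA (m24OK_len hm) hB hσ i]; exact hi

/-- the members of the family are fixed by `toG σ` only if `σ` fixes the block -/
theorem fix_block_of_fix {N : ℕ} {A : List Net} (hA : okA N A = true) (hm : m24OK A = true)
    {S ts : List ℕ} (hS : subOK A S = true) {lo n t : ℕ}
    (h : (List.range n).map (fun k => colVal S (lo + k)) = ts)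
    (hB : invB A (kgens A t) (ivl lo (lo + n)) = true)
    (hi : Set.InjOn (XS S) (bset (ivl lo (lo + n)))) {σ : Perm ℕ} (hσ : σ ∈ K A t) :
    (∀ s ∈ famOf ts, toG σ • s = s) ↔ ∀ i ∈ bset (ivl lo (lo + n)), σ i = i := by
  have ha := smul_XS hA hm hS (K_mono A (Nat.zero_le _) hσ)
  constructor
  · intro h1 i hi'
    refine hi ?_ hi' (by rw [← ha, h1 _ ((mem_famOf_block h).2 ⟨i, hi', rfl⟩)])
    show (ivl lo (lo + n)).testBit (σ i) = true
    rw [K_le_stabB hA (m24OK_len hm) hB hσ i]; exact hi'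
  · intro h1 s hs
    obtain ⟨i, hi', rfl⟩ := (mem_famOf_block h).1 hs
    rw [ha, h1 i hi']

/-- the pointwise stabiliser of a family -/
def fixFam (S : Finset (Finset GolayPt)) : Subgroup M24 where
  carrier := {g | ∀ s ∈ S, (g : Perm GolayPt) • s = s}
  one_mem' := fun _ _ => one_smul _ _
  mul_mem' := fun {a b} ha hb s hs => by rw [Subgroup.coe_mul, mul_smul, hb s hs, ha s hs]
  inv_mem' := fun {a} ha s hs => by rw [Subgroup.coe_inv, inv_smul_eq_iff, ha s hs]

theorem fixFam_le (S : Finset (Finset GolayPt)) : fixFam S ≤ stabilizer M24 S := by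
  intro g hg
  apply Finset.eq_of_subset_of_card_le _ (by rw [Finset.card_smul_finset])
  intro s hs
  obtain ⟨u, hu, rfl⟩ := Finset.mem_smul_finset.1 hs
  rw [coe_smul_M24, hg u hu]; exact hu

theorem card_fixFam_smul (k : M24) (S : Finset (Finset GolayPt)) :
    Nat.card (fixFam (k • S)) = Nat.card (fixFam S) := by
  refine (Nat.card_congr (conjEquiv k (H := fixFam S) (H' := fixFam (k • S)) fun g => ⟨fun h s hs => ?_,
    fun h s hs => ?_⟩).toEquiv).symm
  · exact (conj_smul_iff k g s s).1 (h _ (mem_smul_fam.2 hs))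
  · obtain ⟨u, hu, rfl⟩ := Finset.mem_smul_finset.1 hs
    exact (conj_smul_iff k g u u).2 (h u hu)

theorem mem_fam_iff {g : M24} {S : Finset (Finset GolayPt)} (hg : g ∈ stabilizer M24 S)
    (y : Finset GolayPt) : g • y ∈ S ↔ y ∈ S := by
  conv_lhs => rw [← mem_stabilizer_iff.1 hg]
  exact mem_smul_fam

theorem card_fix_sub (S : Finset (Finset GolayPt)) :
    Nat.card {g : stabilizer M24 S // ∀ t ∈ S, ((g : M24) : Perm GolayPt) • t = t} =
      Nat.card (fixFam S) :=
  Nat.card_congr ⟨fun g => ⟨g.1, g.2⟩, fun g => ⟨⟨g.1, fixFam_le S g.2⟩, g.2⟩, fun _ => rfl,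
    fun _ => rfl⟩

/-- the stabiliser induces all permutations of the family when the orders match -/
theorem induces_all (S : Finset (Finset GolayPt))
    (h : Nat.card (stabilizer M24 S) = Nat.card (fixFam S) * S.card.factorial) (e : Perm S) :
    ∃ g ∈ stabilizer M24 S, ∀ t : S, (g : Perm GolayPt) • (t : Finset GolayPt) = (e t : S) := by
  have hk : Nat.card (permOn S (stabilizer M24 S) fun _ hg => mem_fam_iff hg).ker =
      Nat.card (fixFam S) := by
    rw [← card_fix_sub]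
    exact Nat.card_congr (Equiv.subtypeEquivRight fun g => mem_ker_permOn _ _ _ g)
  obtain ⟨g, rfl⟩ := surj_of_card_ker (permOn S (stabilizer M24 S) fun _ hg => mem_fam_iff hg)
    (by rw [hk, h, Nat.card_perm, Nat.card_eq_fintype_card (α := S), Fintype.card_coe]) e
  exact ⟨g, g.2, fun _ => rfl⟩

end Cfsg.Agent.Golay
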