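import Cfsg.Agent.Lib.Golay.Enum
import Cfsg.Agent.Lib.Golay.Coset

/-! Tools for analysing subgroups of `M24` through their orbits on the points. -/

set_option autoImplicit false
set_option maxRecDepth 100000

namespace Cfsg.Agent.Golay

open Cfsg Cfsg.Agent.PG Equiv MulAction
open scoped Pointwise symmDiff

section General

variable {G : Type*} [Group G]

/-- the conjugate `k⁻¹ H k` -/
def cj (k : G) (H : Subgroup G) : Subgroup G := H.comap (MulAut.conj k).toMonoidHom

theorem mem_cj {k g : G} {H : Subgroup G} : g ∈ cj k H ↔ k * g * k⁻¹ ∈ H := Iff.rfl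

theorem card_cj (k : G) (H : Subgroup G) : Nat.card (cj k H) = Nat.card H :=
  Nat.card_congr (conjEquiv k fun _ => mem_cj.symm).toEquiv

theorem mem_cj' {k g : G} {H : Subgroup G} (h : g ∈ H) : k⁻¹ * g * k ∈ cj k H := by
  rw [mem_cj]
  have : k * (k⁻¹ * g * k) * k⁻¹ = g := by group
  rwa [this]

theorem cj_le {k : G} {H S : Subgroup G} (hk : k ∈ S) (h : H ≤ S) : cj k H ≤ S := fun g hg => by
  have h1 := S.mul_mem (S.mul_mem (S.inv_mem hk) (h (mem_cj.1 hg))) hk
  have : k⁻¹ * (k * g * k⁻¹) * k = g := by group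
  rwa [this] at h1

theorem le_stab_of_cj {Y : Type*} [MulAction G Y] {k : G} {H : Subgroup G} {y : Y}
    (h : cj k H ≤ stabilizer G y) : H ≤ stabilizer G (k • y) := fun g hg => by
  have := h (mem_cj' hg)
  rw [mem_stabilizer_iff, mul_smul, mul_smul, inv_smul_eq_iff] at this
  exact this

theorem exists_conj_into [Finite G] {p a : ℕ} (hp : p.Prime) {S H Q : Subgroup G} (hH : H ≤ S)
    (hQ : Q ≤ S) (h1 : p ^ a ∣ Nat.card H) (h2 : ¬ p ^ (a + 1) ∣ Nat.card S) (h3 : IsPGroup p Q) :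
    ∃ k ∈ S, Q ≤ cj k H := by
  have := Fact.mk hp
  have hc : Nat.card (H.subgroupOf S) = Nat.card H :=
    Nat.card_congr (Subgroup.subgroupOfEquivOfLe hH).toEquiv
  obtain ⟨P, hP⟩ := Sylow.exists_subgroup_card_pow_prime (G := H.subgroupOf S) p (hc ▸ h1)
  obtain ⟨k, hk⟩ := exists_conj_le (G := S) hp (P := P.map (H.subgroupOf S).subtype) (a := a)
    (Q := Q.subgroupOf S) (by rw [Subgroup.card_map_of_injective (Subgroup.subtype_injective _), hP])
    h2 (h3.of_equiv (Subgroup.subgroupOfEquivOfLe hQ).symm)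
  refine ⟨k, k.2, fun x hx => ?_⟩
  obtain ⟨y, _, e⟩ := hk ⟨x, hQ hx⟩ hx
  have h4 : (y : S) ∈ H.subgroupOf S := y.2
  rw [show (y : S) = _ from e] at h4
  exact h4

theorem isPGroup_zpowers {p : ℕ} {u : G} (h : u ^ p = 1) : IsPGroup p (Subgroup.zpowers u) := by
  rintro ⟨_, n, rfl⟩
  refine ⟨1, Subtype.ext ?_⟩
  show (u ^ n) ^ p ^ 1 = 1
  rw [pow_one, ← zpow_natCast, ← zpow_mul, mul_comm, zpow_mul, zpow_natCast, h, one_zpow]

theorem mem_of_card_lt [Finite G] {p : ℕ} (hp : p.Prime) {S J : Subgroup G} (hJ : J ≤ S)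
    (h : Nat.card S < p * Nat.card J) {g : G} (hg : g ∈ S) (h1 : g ^ p = 1) : g ∈ J := by
  have h2 := (J.subgroupOf S).card_mul_index
  rw [Nat.card_congr (Subgroup.subgroupOfEquivOfLe hJ).toEquiv] at h2
  refine mem_of_index_lt (G := S) hp (H := J.subgroupOf S) ?_ (g := ⟨g, hg⟩) (Subtype.ext h1)
  by_contra h3
  rw [← h2, mul_comm] at h
  exact absurd h (not_lt.2 (Nat.mul_le_mul_right _ (not_lt.1 h3)))

/-- transporting an invariant of a point stabiliser -/
theorem conj_stab {X Y : Type*} [MulAction G X] [MulAction G Y] {H : Subgroup G} {x : X} {s : Y}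
    (hJ : H ⊓ stabilizer G x ≤ stabilizer G s) {h : G} (hh : h ∈ H) :
    H ⊓ stabilizer G (h • x) ≤ stabilizer G (h • s) := fun g hg => by
  have : h⁻¹ * g * h ∈ H ⊓ stabilizer G x := ⟨H.mul_mem (H.mul_mem (H.inv_mem hh) hg.1) hh, by
    show (h⁻¹ * g * h) • x = x
    rw [mul_smul, mul_smul, inv_smul_eq_iff]
    exact hg.2⟩
  have := hJ this
  rw [mem_stabilizer_iff, mul_smul, mul_smul, inv_smul_eq_iff] at this
  exact this

theorem exists_pow_prime [Finite G] {p : ℕ} (hp : p.Prime) {H : Subgroup G}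
    (h : p ∣ Nat.card H) : ∃ v ∈ H, v ≠ 1 ∧ v ^ p = 1 := by
  have := Fact.mk hp
  obtain ⟨v, hv⟩ := exists_prime_orderOf_dvd_card' (G := H) p h
  refine ⟨v, v.2, fun e => ?_, ?_⟩
  · rw [show v = 1 from Subtype.ext e, orderOf_one] at hv
    exact hp.one_lt.ne hv
  · rw [← Subgroup.coe_pow, ← hv, pow_orderOf_eq_one]; rfl

theorem dvd_card_of_mem {p : ℕ} (hp : p.Prime) {H : Subgroup G} {v : G} (hv : v ∈ H) (h1 : v ≠ 1)
    (h2 : v ^ p = 1) : p ∣ Nat.card H := by
  have := Fact.mk hp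
  rw [← orderOf_eq_prime h2 h1]
  exact H.orderOf_dvd_natCard hv

theorem card_zpowers_prime {p : ℕ} (hp : p.Prime) {v : G} (h1 : v ≠ 1) (h2 : v ^ p = 1) :
    Nat.card (Subgroup.zpowers v) = p ^ 1 := by
  have := Fact.mk hp
  rw [Nat.card_zpowers, orderOf_eq_prime h2 h1, pow_one]

/-- the normaliser of a group of prime order -/
theorem card_normalizer_dvd [Finite G] {p : ℕ} (hp : p.Prime) (S : Subgroup G) {v : G}
    (h1 : v ≠ 1) (h2 : v ^ p = 1) :
    Nat.card ↥(S ⊓ Subgroup.normalizer (Subgroup.zpowers v : Set G)) ∣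
      Nat.card ↥(S ⊓ Subgroup.centralizer {v}) * (p - 1) := by
  let φ := (Subgroup.zpowers v).normalizerMonoidHom.comp (Subgroup.inclusion
    (inf_le_right : S ⊓ Subgroup.normalizer (Subgroup.zpowers v : Set G) ≤ _))
  rw [← φ.ker.card_mul_index]
  apply Nat.mul_dvd_mul
  · rw [← Subgroup.card_map_of_injective (Subgroup.subtype_injective _)]
    apply Subgroup.card_dvd_of_le
    rintro _ ⟨g, hg, rfl⟩
    refine ⟨g.2.1, ?_⟩
    have h3 : Subgroup.inclusion inf_le_right g ∈ (Subgroup.zpowers v).normalizerMonoidHom.ker := hg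
    rw [Subgroup.normalizerMonoidHom_ker, Subgroup.mem_subgroupOf] at h3
    exact Subgroup.centralizer_le (Set.singleton_subset_iff.2 (Subgroup.mem_zpowers v)) h3
  · rw [Subgroup.index_ker]
    have := Subgroup.card_subgroup_dvd_card φ.range
    rwa [IsCyclic.card_mulAut, card_zpowers_prime hp h1 h2, pow_one, Nat.totient_prime hp] at this

end General

/-! ### Orbits -/

open Classical in
/-- the orbit of a point -/
noncomputable def orbF (H : Subgroup M24) (p : GolayPt) : Finset GolayPt :=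
  Finset.univ.filter fun z => ∃ g ∈ H, (g : Perm GolayPt) p = z

theorem mem_orbF {H : Subgroup M24} {p z : GolayPt} :
    z ∈ orbF H p ↔ ∃ g ∈ H, (g : Perm GolayPt) p = z := by simp [orbF]

theorem self_mem_orbF (H : Subgroup M24) (p : GolayPt) : p ∈ orbF H p :=
  mem_orbF.2 ⟨1, H.one_mem, rfl⟩

theorem card_orbF (H : Subgroup M24) (p : GolayPt) :
    (orbF H p).card * Nat.card ↥(H ⊓ stabilizer M24 p) = Nat.card H :=
  card_inf_pt H p _ (fun _ hz => mem_orbF.1 hz) fun g hg => mem_orbF.2 ⟨g, hg, rfl⟩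

theorem card_orbF_dvd (H : Subgroup M24) (p : GolayPt) : (orbF H p).card ∣ Nat.card H :=
  ⟨_, (card_orbF H p).symm⟩

theorem apply_mem_orbF {H : Subgroup M24} {p z : GolayPt} {g : M24} (hg : g ∈ H)
    (hz : z ∈ orbF H p) : (g : Perm GolayPt) z ∈ orbF H p := by
  obtain ⟨h, hh, rfl⟩ := mem_orbF.1 hz
  exact mem_orbF.2 ⟨g * h, H.mul_mem hg hh, rfl⟩

theorem le_stab_orbF (H : Subgroup M24) (p : GolayPt) : H ≤ stabilizer M24 (orbF H p) :=
  fun g hg => smul_eq_of_mem_iff fun z => ⟨fun h => by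
    have := apply_mem_orbF (H.inv_mem hg) h
    simpa using this, apply_mem_orbF hg⟩

theorem orbF_subset {H : Subgroup M24} {p : GolayPt} {s : Finset GolayPt}
    (h : H ≤ stabilizer M24 s) (hp : p ∈ s) : orbF H p ⊆ s := fun z hz => by
  obtain ⟨g, hg, rfl⟩ := mem_orbF.1 hz
  exact (mem_iff_of_smul_eq (mem_stab_M24.1 (h hg)) p).2 hp

theorem orbF_mono {H H' : Subgroup M24} (h : H ≤ H') (p : GolayPt) : orbF H p ⊆ orbF H' p :=
  fun z hz => by
    obtain ⟨g, hg, e⟩ := mem_orbF.1 hz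
    exact mem_orbF.2 ⟨g, h hg, e⟩

theorem orbF_trans {H : Subgroup M24} {p q : GolayPt} (h : q ∈ orbF H p) : orbF H q ⊆ orbF H p :=
  orbF_subset (le_stab_orbF H p) h

theorem notMem_orbF {H : Subgroup M24} {p q : GolayPt} (h : H ≤ stabilizer M24 q) (hne : p ≠ q) :
    q ∉ orbF H p := fun hq => by
  obtain ⟨g, hg, e⟩ := mem_orbF.1 hq
  exact hne ((g : Perm GolayPt).injective (e.trans (mem_stab_pt.1 (h hg)).symm))

theorem card_le_of_orbF {H : Subgroup M24} {p : GolayPt} {s : Finset GolayPt}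
    (h : s ⊆ orbF H p) : s.card * Nat.card ↥(H ⊓ stabilizer M24 p) ≤ Nat.card H := by
  rw [← card_orbF H p]
  exact Nat.mul_le_mul_right _ (Finset.card_le_card h)

theorem card_ge_of_orbF {H : Subgroup M24} {p : GolayPt} {s : Finset GolayPt}
    (h : H ≤ stabilizer M24 s) (hp : p ∈ s) :
    Nat.card H ≤ s.card * Nat.card ↥(H ⊓ stabilizer M24 p) := by
  rw [← card_orbF H p]
  exact Nat.mul_le_mul_right _ (Finset.card_le_card (orbF_subset h hp))

/-- an overgroup of a point stabiliser with a long orbit -/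
theorem eq_of_long_orbit {H L : Subgroup M24} {x : GolayPt} (hL : L ≤ H)
    (hJ : H ⊓ stabilizer M24 x ≤ L) (h : (orbF H x).card < 2 * (orbF L x).card) : L = H := by
  have h1 := card_orbF H x
  have h2 := card_orbF L x
  have e : L ⊓ stabilizer M24 x = H ⊓ stabilizer M24 x :=
    le_antisymm (inf_le_inf_right _ hL) (le_inf hJ inf_le_right)
  rw [e] at h2
  obtain ⟨c, hc⟩ := Subgroup.card_dvd_of_le hL
  have h3 : 0 < Nat.card ↥(H ⊓ stabilizer M24 x) := Nat.card_pos
  have h4 : 0 < Nat.card H := Nat.card_pos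
  apply Subgroup.eq_of_le_of_card_ge hL
  rw [← h1, ← h2, mul_right_comm] at hc
  have h5 := Nat.eq_of_mul_eq_mul_right h3 hc
  have h6 : c < 2 := by
    by_contra h7
    have := Nat.mul_le_mul_left (orbF L x).card (not_lt.1 h7)
    omega
  rw [← h1, ← h2, h5]
  exact Nat.mul_le_mul_right _ (by interval_cases c <;> omega)

/-! ### Invariant sets -/

theorem le_stab_xor {J : Subgroup M24} {a b c : ℕ} (ha : J ≤ stabilizer M24 (ofMask a))
    (hb : J ≤ stabilizer M24 (ofMask b)) (h : a ^^^ b = c) : J ≤ stabilizer M24 (ofMask c) :=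
  fun g hg => by
    rw [mem_stab_M24, ← h, ofMask_xor, smul_symmDiff', mem_stab_M24.1 (ha hg),
      mem_stab_M24.1 (hb hg)]

theorem le_stab_full (J : Subgroup M24) : J ≤ stabilizer M24 (ofMask 0xffffff) := fun g _ => by
  rw [mem_stab_M24, ofMask_full]; exact Finset.smul_finset_univ

theorem stab_two_pow {i : ℕ} (hi : i < 24) :
    stabilizer M24 (ofMask (2 ^ i)) = stabilizer M24 (pt i) := by
  ext g
  rw [mem_stab_M24, ofMask_two_pow hi, smul_singleton', Finset.singleton_inj]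
  rfl

theorem le_stab_cw {J : Subgroup M24} {s c : Finset GolayPt} (h : J ≤ stabilizer M24 s)
    (hc : Cw c) (hd : (s ∆ c).card ≤ 3) : J ≤ stabilizer M24 c := fun g hg => by
  apply (hc.smul g.2).eq_of_small hc
  have h1 : ((g : Perm GolayPt) • c) ∆ c = ((g : Perm GolayPt) • (s ∆ c)) ∆ (s ∆ c) := by
    rw [smul_symmDiff', mem_stab_M24.1 (h hg), symmDiff_symmDiff_symmDiff_comm, symmDiff_self,
      bot_symmDiff]
  have h2 := card_symmDiff_add ((g : Perm GolayPt) • (s ∆ c)) (s ∆ c)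
  rw [Finset.card_smul_finset, ← h1] at h2
  omega

theorem le_stab_cw' {J : Subgroup M24} {a c : ℕ} (h : J ≤ stabilizer M24 (ofMask a))
    (hc : isCw c = true ∧ pc (a ^^^ c) ≤ 3) : J ≤ stabilizer M24 (ofMask c) :=
  le_stab_cw h (cw_of_isCw hc.1) (by rw [← ofMask_xor, card_ofMask]; exact hc.2)

/-! ### Explicit elements -/

section Words

variable {N : ℕ} {A : List Net} (hA : okA N A = true) (hm : m24OK A = true)

/-- the element of `M24` given by a word -/
noncomputable def el (w : List ℕ) : M24 := ⟨toG (pp A w), (K_E24 hA hm (pp_mem_K0 A w)).2⟩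

theorem el_fix {w : List ℕ} {m : ℕ} (h : Nat.beq (papp1 A w m) m = true) :
    el hA hm w ∈ stabilizer M24 (ofMask m) := by
  rw [Nat.beq_eq] at h
  exact (K_E24 hA hm (pp_mem_K0 A w)).1.smul_ofMask fun i _ => by
    rw [← testBit_papp1 hA, h]

theorem el_fix_pt {w : List ℕ} {i : ℕ} (hi : i < 24) (h : mapsB A w i i = true) :
    el hA hm w ∈ stabilizer M24 (pt i) := toG_pp_apply hA hm hi h

theorem el_pow {w : List ℕ} {p : ℕ} (h : eq24 A (powP w p) [] = true) : el hA hm w ^ p = 1 := by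
  apply Subtype.ext
  have h1 := (eq24_iff hA hm _ _).1 h
  rw [pp_powP, pp_nil, toG_one] at h1
  have h2 := map_pow (toM24 hA hm 0) ⟨pp A w, pp_mem_K0 A w⟩ p
  have h3 : toG (pp A w ^ p) = ((el hA hm w ^ p : M24) : Perm GolayPt) := congrArg Subtype.val h2
  rw [← h3, h1]; rfl

theorem cover_orbF {H : Subgroup M24} {gens : List (List ℕ)} (hg : ∀ w ∈ gens, el hA hm w ∈ H)
    {r a m : ℕ} (ha : a < 24) (h : coverB A gens r [a] m = true) : ofMask m ⊆ orbF H (pt a) := by
  intro p hp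
  obtain ⟨a', ha', _, ⟨⟨g, σ⟩, ⟨h1, ⟨g', hg', rfl⟩, -⟩, rfl⟩, e⟩ := coverB_spec hA
    (Q := (E24 ⊓ (H.map M24.subtype).prod ⊤).map (MonoidHom.snd _ _))
    (fun w hw => ⟨(toG (pp A w), pp A w), ⟨mem_E24.2 (K_E24 hA hm (pp_mem_K0 A w)),
      ⟨_, hg w hw, rfl⟩, trivial⟩, rfl⟩) h (i := idx p) (mem_ofMask.1 hp)
  rw [List.mem_singleton.1 ha'] at e
  refine mem_orbF.2 ⟨g', hg', ?_⟩
  have := (mem_E24.1 h1).1.apply (pt a)
  rw [idx_pt a ha] at this
  exact this.trans (by rw [show σ a = idx p from e, pt_idx])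

/-- the list of orbits `(representative, mask)` is correct -/
noncomputable def orbsB (A : List Net) (gens : List (List ℕ)) (r : ℕ) (cs : List (ℕ × ℕ)) : Bool :=
  andB (Nat.beq (orL (cs.map Prod.snd)) 0xffffff) <|
    allL cs fun c => andB (Nat.blt c.1 24) (coverB A gens r [c.1] c.2)

theorem inv_cases {H : Subgroup M24} {gens : List (List ℕ)} (hg : ∀ w ∈ gens, el hA hm w ∈ H)
    {r : ℕ} {cs : List (ℕ × ℕ)} (h : orbsB A gens r cs = true) {s : Finset GolayPt}
    (hs : H ≤ stabilizer M24 s) :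
    s = ofMask (orL (cs.map fun c => if pt c.1 ∈ s then c.2 else 0)) := by
  unfold orbsB at h
  rw [andB_eq, Bool.and_eq_true, Nat.beq_eq] at h
  have key : ∀ c ∈ cs, ∀ p ∈ ofMask c.2, (p ∈ s ↔ pt c.1 ∈ s) := by
    intro c hc p hp
    have h1 := allL_spec h.2 c hc
    rw [andB_eq, Bool.and_eq_true, Nat.blt_eq] at h1
    obtain ⟨g, hg', rfl⟩ := mem_orbF.1 (cover_orbF hA hm hg h1.1 h1.2 hp)
    exact mem_iff_of_smul_eq (mem_stab_M24.1 (hs hg')) _
  ext p
  rw [mem_ofMask, testBit_orL']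
  constructor
  · intro hp
    have h1 := (testBit_full (idx p)).2 (idx_lt p)
    rw [← h.1, testBit_orL'] at h1
    obtain ⟨_, h2, h3⟩ := h1
    obtain ⟨c, hc, rfl⟩ := List.mem_map.1 h2
    exact ⟨_, List.mem_map.2 ⟨c, hc, rfl⟩, by
      rw [if_pos ((key c hc p (mem_ofMask.2 h3)).1 hp)]; exact h3⟩
  · rintro ⟨_, h2, h3⟩
    obtain ⟨c, hc, rfl⟩ := List.mem_map.1 h2
    split_ifs at h3 with h4
    · exact (key c hc p (mem_ofMask.2 h3)).2 h4
    · simp at h3

/-- all unions of the listed sets -/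
def unions : List ℕ → List ℕ
  | [] => [0]
  | c :: l => unions l ++ (unions l).map (Nat.lor c)

theorem mem_unions {α : Type} (cs : List α) (f : α → ℕ) (P : α → Prop) [DecidablePred P] :
    orL (cs.map fun c => if P c then f c else 0) ∈ unions (cs.map f) := by
  induction cs with
  | nil => exact List.mem_singleton.2 rfl
  | cons c l ih =>
    show Nat.lor (if P c then f c else 0) _ ∈ unions (l.map f) ++ _
    rw [List.mem_append]
    split_ifs
    · exact Or.inr (List.mem_map.2 ⟨_, ih, rfl⟩)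
    · left
      rw [show ∀ x, Nat.lor 0 x = x from Nat.zero_or]
      exact ih

/-- an invariant set is one of the listed sets -/
theorem inv_mem {H : Subgroup M24} {gens : List (List ℕ)} (hg : ∀ w ∈ gens, el hA hm w ∈ H)
    {r : ℕ} {cs : List (ℕ × ℕ)} (h : orbsB A gens r cs = true) {s : Finset GolayPt}
    (hs : H ≤ stabilizer M24 s) {P : ℕ → Prop} (hP : ∀ m, ofMask m = s → P m) {l : List ℕ}
    (hl : ∀ m ∈ unions (cs.map Prod.snd), P m → m ∈ l) : ∃ m ∈ l, s = ofMask m := by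
  have e := inv_cases hA hm hg h hs
  exact ⟨_, hl _ (mem_unions cs Prod.snd fun c => pt c.1 ∈ s) (hP _ e.symm), e⟩

theorem el_mem_range {t : ℕ} : ∀ w ∈ kgens A t, el hA hm w ∈ (toM24 hA hm t).range :=
  fun w hw => ⟨⟨pp A w, kgens_mem (m24OK_len hm) t w hw⟩, rfl⟩

theorem range_le {t : ℕ} {H : Subgroup M24} (h : ∀ w ∈ kgens A t, el hA hm w ∈ H) :
    (toM24 hA hm t).range ≤ H := by
  rintro _ ⟨σ, rfl⟩
  have := (mem_of_K (E := E24 ⊓ (H.map M24.subtype).prod ⊤) inf_le_left (t := t)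
    (fun j h1 h2 => ⟨gp_E24 hA hm j, ⟨_, h [gw j] (List.mem_map.2 ⟨j, by
      rw [List.mem_range'_1]; omega, rfl⟩), by
        show toG (pp A [gw j]) = _
        rw [pp_gw (lt_of_lt_of_le h2 (m24OK_len hm))]⟩, trivial⟩) σ.2).2.1
  obtain ⟨g, hg, e⟩ := this
  have : toM24 hA hm t σ = g := Subtype.ext e.symm
  rwa [this]

theorem card_range {t : ℕ} (hf : FixTriv (K A t) I24) :
    Nat.card (toM24 hA hm t).range = Nat.card (K A t) :=
  (Nat.card_congr (MonoidHom.ofInjective (toM24_injective hA hm hf)).toEquiv).symm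

end Words

/-! ### Fixed points of elements of prime order -/

/-- the fixed points -/
def fixF (v : M24) : Finset GolayPt := Finset.univ.filter fun p => (v : Perm GolayPt) p = p

theorem mem_fixF {v : M24} {p : GolayPt} : p ∈ fixF v ↔ (v : Perm GolayPt) p = p := by simp [fixF]

theorem fix_modEq {p : ℕ} (hp : p.Prime) {v : M24} (hv : v ^ p = 1) {s : Finset GolayPt}
    (hs : v ∈ stabilizer M24 s) : s.card % p = (s ∩ fixF v).card % p := by
  have := Fact.mk hp
  have h1 : (resHom s ⟨v, hs⟩) ^ p ^ 1 = 1 := by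
    rw [pow_one, ← map_pow, show (⟨v, hs⟩ : stabilizer M24 s) ^ p = 1 from Subtype.ext hv, map_one]
  have h2 := Perm.card_compl_support_modEq h1
  unfold Nat.ModEq at h2
  rw [Fintype.card_coe] at h2
  rw [← h2]
  congr 1
  apply Finset.card_bij (fun (x : s) _ => (x : GolayPt))
  · intro x hx
    rw [Finset.mem_compl, Perm.notMem_support] at hx
    exact Finset.mem_inter.2 ⟨x.2, mem_fixF.2 (congrArg Subtype.val hx)⟩
  · intro x _ y _ h; exact Subtype.ext h
  · intro x hx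
    rw [Finset.mem_inter] at hx
    exact ⟨⟨x, hx.1⟩, by
      rw [Finset.mem_compl, Perm.notMem_support]; exact Subtype.ext (mem_fixF.1 hx.2), rfl⟩

theorem card_fixF_lt {p : ℕ} (hp : p.Prime) (h5 : 5 ≤ p) {v : M24} (h1 : v ≠ 1) (hv : v ^ p = 1) :
    (fixF v).card < 5 := by
  by_contra h
  obtain ⟨s, hs, hc⟩ := Finset.exists_subset_card_eq (not_lt.1 h)
  obtain ⟨o, ho, hso⟩ := exists_octad_of_card_le hc.le
  have h2 : v ∈ stabilizer M24 o := fix_octad v.2 (fun p hp => mem_fixF.1 (hs hp)) ho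
    (by rw [Finset.inter_eq_right.2 hso, hc])
  have h3 := fix_modEq hp hv h2
  have h4 : 5 ≤ (o ∩ fixF v).card := hc ▸ Finset.card_le_card (Finset.subset_inter hso hs)
  have h6 : (o ∩ fixF v).card ≤ o.card := Finset.card_le_card Finset.inter_subset_left
  have h7 : o.card ≤ (o ∩ fixF v).card := by
    by_contra h8
    have := Nat.le_of_dvd (by omega) ((Nat.modEq_iff_dvd' h6).1 h3.symm)
    rw [ho.2] at this h8
    omega
  have h8 := Finset.eq_of_subset_of_card_le Finset.inter_subset_left h7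
  let H : Subgroup M24 := fixingSubgroup M24 (o : Set GolayPt)
  have h9 := card_fix_octad ho (H := H) fun g => mem_fixingSubgroup_iff _
  have h10 := dvd_card_of_mem hp (H := H) ((mem_fixingSubgroup_iff _).2 fun x hx =>
    mem_fixF.1 (Finset.mem_inter.1 (h8.symm ▸ hx)).2) h1 hv
  rw [h9] at h10
  have := (Nat.prime_dvd_prime_iff_eq hp Nat.prime_two).1 (hp.dvd_of_dvd_pow (n := 4) h10)
  omega

end Cfsg.Agent.Golay
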