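import Cfsg.Agent.Lib.Golay.Odd

/-! More tools for explicit elements of `M24`. -/

set_option autoImplicit false
set_option maxRecDepth 100000

namespace Cfsg.Agent.Golay

open Cfsg Cfsg.Agent.PG Equiv MulAction
open scoped Pointwise symmDiff

/-- the centraliser inside a subgroup -/
def centSub {G : Type*} [Group G] {S : Subgroup G} (x : S) :
    Subgroup.centralizer ({x} : Set S) ≃* ↥(S ⊓ Subgroup.centralizer {(x : G)}) where
  toFun g := ⟨g.1.1, g.1.2, Subgroup.mem_centralizer_singleton_iff.2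
    (congrArg Subtype.val (Subgroup.mem_centralizer_singleton_iff.1 g.2))⟩
  invFun g := ⟨⟨g.1, g.2.1⟩, Subgroup.mem_centralizer_singleton_iff.2
    (Subtype.ext (Subgroup.mem_centralizer_singleton_iff.1 g.2.2))⟩
  left_inv _ := rfl
  right_inv _ := rfl
  map_mul' _ _ := rfl

/-- a list of distinct elements of the right length exhausts the group -/
theorem enum_of_card {N : ℕ} {A : List Net} (hA : okA N A = true) {t : ℕ} {ws : List (List ℕ)}
    {bs : List ℕ} (h1 : allL ws (pge t) = true)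
    (h2 : (ws.map fun w => bs.map (pre A w)).Nodup) (hc : Nat.card (K A t) = ws.length) :
    ∀ σ ∈ K A t, ∃ w ∈ ws, σ = pp A w := by
  classical
  have h3 : (ws.map (pp A)).Nodup := by
    apply List.Nodup.of_map (fun σ : Perm ℕ => bs.map fun b => σ⁻¹ b)
    rw [List.map_map]
    convert h2 using 2
    funext w
    exact List.map_congr_left fun b _ => (pre_eq hA w b).symm
  have := finite_K hA t
  have h4 : ((ws.map (pp A)).toFinset : Set (Perm ℕ)) = K A t := by
    apply Set.eq_of_subset_of_ncard_le _ _ (Set.toFinite _)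
    · intro σ hσ
      obtain ⟨w, hw, rfl⟩ := List.mem_map.1 (List.mem_toFinset.1 hσ)
      exact pp_mem (allL_spec h1 w hw)
    · rw [Set.ncard_coe_finset, List.toFinset_card_of_nodup h3, List.length_map, ← hc]
      exact le_rfl
  intro σ hσ
  have h5 : σ ∈ ((ws.map (pp A)).toFinset : Set (Perm ℕ)) := h4 ▸ hσ
  obtain ⟨w, hw, rfl⟩ := List.mem_map.1 (List.mem_toFinset.1 h5)
  exact ⟨w, hw, rfl⟩

theorem le_stab_and {J : Subgroup M24} {a b c : ℕ} (ha : J ≤ stS a) (hb : J ≤ stS b)
    (h : a &&& b = c) : J ≤ stS c := fun g hg => by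
  rw [mem_stab_M24, ← h, ofMask_and, smul_inter', mem_stab_M24.1 (ha hg), mem_stab_M24.1 (hb hg)]

section Words

variable {N N' : ℕ} {A B : List Net} (hA : okA N A = true) (hm : m24OK A = true)
  (hB : okA N' B = true) (mB : m24OK B = true)

theorem idx_el_inv (w : List ℕ) (p : GolayPt) :
    idx ((((el hA hm w)⁻¹ : M24) : Perm GolayPt) p) = pre A w (idx p) := by
  rw [pre_eq hA]
  exact Lk.idx (Acts.inv (K_E24 hA hm (pp_mem_K0 A w)).1) p

/-- `g w = z g` on the points -/
noncomputable def conjB (A B : List Net) (g w z : List ℕ) : Bool :=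
  allN 24 fun p => Nat.beq (pre A w (pre B g p)) (pre B g (pre A z p))

theorem el_conj {g w z : List ℕ} (h : conjB A B g w z = true) :
    el hB mB g * el hA hm w = el hA hm z * el hB mB g := by
  rw [← inv_inj, mul_inv_rev, mul_inv_rev]
  apply Subtype.ext
  ext1 p
  have h1 := allN_spec h _ (idx_lt p)
  rw [Nat.beq_eq, ← idx_el_inv hB mB, ← idx_el_inv hA hm, ← idx_el_inv hA hm,
    ← idx_el_inv hB mB] at h1
  exact idx_inj h1

theorem el_pow_iff {w : List ℕ} {p : ℕ} :
    eq24 A (powP w p) [] = false ↔ el hA hm w ^ p ≠ 1 := by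
  rw [← Bool.not_eq_true, eq24_iff hA hm, pp_powP, pp_nil, toG_one]
  have h2 := map_pow (toM24 hA hm 0) ⟨pp A w, pp_mem_K0 A w⟩ p
  have h3 : toG (pp A w ^ p) = ((el hA hm w ^ p : M24) : Perm GolayPt) := congrArg Subtype.val h2
  rw [h3]
  exact not_congr ⟨fun h => Subtype.ext h, fun h => congrArg Subtype.val h⟩

theorem fixF_el {w : List ℕ} {m : ℕ}
    (h : allN 24 (fun p => Bool.not (Bool.xor (Nat.beq (pre A w p) p) (bit m p))) = true) :
    fixF (el hA hm w) = ofMask m := by
  ext p
  have h1 := allN_spec h _ (idx_lt p)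
  rw [← idx_el_inv hA hm, bit_eq] at h1
  rw [mem_fixF, mem_ofMask, ← Perm.eq_inv_iff_eq, eq_comm]
  have h2 : (((el hA hm w)⁻¹ : M24) : Perm GolayPt) p = p ↔
      Nat.beq (idx ((((el hA hm w)⁻¹ : M24) : Perm GolayPt) p)) (idx p) = true := by
    rw [Nat.beq_eq]
    exact ⟨fun h => by rw [h], idx_inj⟩
  refine h2.trans ?_
  revert h1
  cases Nat.beq (idx ((((el hA hm w)⁻¹ : M24) : Perm GolayPt) p)) (idx p) <;>
    cases m.testBit (idx p) <;> simp

theorem cent_le_fix {w : List ℕ} {m : ℕ}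
    (h : allN 24 (fun p => Bool.not (Bool.xor (Nat.beq (pre A w p) p) (bit m p))) = true) :
    Subgroup.centralizer {el hA hm w} ≤ stS m := by
  rw [← fixF_el hA hm h]
  generalize el hA hm w = v
  intro g hg
  rw [mem_stab_M24]
  apply smul_eq_of_mem_iff
  intro q
  have e : (v : Perm GolayPt) ((g : Perm GolayPt) q) = (g : Perm GolayPt) ((v : Perm GolayPt) q) :=
    (congrArg (fun x : M24 => (x : Perm GolayPt) q)
      (Subgroup.mem_centralizer_singleton_iff.1 hg)).symm
  rw [mem_fixF, mem_fixF, e, EmbeddingLike.apply_eq_iff_eq]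

end Words

end Cfsg.Agent.Golay
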